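import Cfsg.Prelude.Def_SolvableStructure
import Cfsg.Agent.Helper17.Basic
import Cfsg.Agent.S0048
import Cfsg.Agent.S0551
import Cfsg.Agent.Helper4.MinNormal
import Mathlib

set_option autoImplicit false

namespace Cfsg.Agent.Helper17

universe u

/-- relative Carter subgroup: `C ≤ K` nilpotent and self-normalizing in `K`. -/
def RelCarter {G : Type u} [Group G] (C K : Subgroup G) : Prop :=
  C ≤ K ∧ Group.IsNilpotent C ∧ ∀ k ∈ K, cj k C ≤ C → k ∈ C

lemma ctr_iff_rel {G : Type u} [Group G] [Finite G] (C : Subgroup G) :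
    Cfsg.IsCarterSubgroup C ↔ RelCarter C ⊤ := by
  constructor
  · rintro ⟨h1, h2⟩
    refine ⟨le_top, h1, ?_⟩
    intro k _ hk
    have := mem_normalizer_of_cj_le hk
    rw [h2] at this
    exact this
  · rintro ⟨-, h1, h2⟩
    refine ⟨h1, le_antisymm ?_ Subgroup.le_normalizer⟩
    intro k hk
    apply h2 k (Subgroup.mem_top k)
    rw [cj_eq_self_of_mem_normalizer hk]

lemma ctr_nil_cj {G : Type u} [Group G] (g : G) {C : Subgroup G} (h : Group.IsNilpotent C) :
    Group.IsNilpotent (cj g C) := by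
  haveI := h
  exact Group.nilpotent_of_mulEquiv (Subgroup.equivMapOfInjective C (MulAut.conj g).toMonoidHom
    (MulAut.conj g).injective)

lemma ctr_cj {G : Type u} [Group G] (g : G) {C : Subgroup G} (h : Cfsg.IsCarterSubgroup C) :
    Cfsg.IsCarterSubgroup (cj g C) := by
  refine ⟨ctr_nil_cj g h.1, ?_⟩
  rw [normalizer_cj, h.2]

lemma ctr_rel_cj {G : Type u} [Group G] {C K H : Subgroup G} (h : RelCarter C K) {g : G}
    (hg : g ∈ K) (hle : cj g C ≤ H) (hHK : H ≤ K) : RelCarter (cj g C) H := by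
  refine ⟨hle, ctr_nil_cj g h.2.1, ?_⟩
  intro x hx hxc
  rw [mem_cj]
  apply h.2.2 _ (K.mul_mem (K.mul_mem (K.inv_mem hg) (hHK hx)) hg)
  have e : cj (g⁻¹ * x * g) C = cj g⁻¹ (cj x (cj g C)) := by
    rw [cj_mul, cj_mul]
  rw [e, cj_le_iff, inv_inv]
  exact hxc

lemma ctr_top_of_nil {G : Type u} [Group G] [hnil : Group.IsNilpotent G] {C : Subgroup G}
    (h : Cfsg.IsCarterSubgroup C) : C = ⊤ := by
  by_contra hne
  have := Group.normalizerCondition_of_isNilpotent (G := G) C (lt_top_iff_ne_top.mpr hne)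
  rw [h.2] at this
  exact lt_irrefl _ this

lemma ctr_map_cj {G : Type u} [Group G] {Q : Type u} [Group Q] (f : G →* Q) (g : G)
    (C : Subgroup G) : (cj g C).map f = cj (f g) (C.map f) := by
  ext x
  constructor
  · rintro ⟨y, hy, rfl⟩
    obtain ⟨z, hz, rfl⟩ := mem_cj'.mp hy
    rw [map_mul, map_mul, map_inv]
    exact conj_mem_cj (Subgroup.mem_map_of_mem f hz)
  · intro hx
    obtain ⟨y, hy, rfl⟩ := mem_cj'.mp hx
    obtain ⟨z, hz, rfl⟩ := hy
    refine ⟨g * z * g⁻¹, conj_mem_cj hz, ?_⟩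
    rw [map_mul, map_mul, map_inv]

lemma ctr_card_lt {G : Type u} [Group G] [Finite G] {K : Subgroup G} (hK : K ≠ ⊤) :
    Nat.card K < Nat.card G := by
  have h1 := Subgroup.card_le_card_group K
  have h2 : Nat.card K ≠ Nat.card G := fun h => hK (Subgroup.card_eq_iff_eq_top K |>.mp h)
  omega

lemma ctr_card_quot_lt {G : Type u} [Group G] [Finite G] (N : Subgroup G) [N.Normal]
    (hN : N ≠ ⊥) : Nat.card (G ⧸ N) < Nat.card G := by
  have h1 := Subgroup.card_eq_card_quotient_mul_card_subgroup N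
  have h2 : Nat.card N ≠ 1 := fun h => hN (Subgroup.card_eq_one.mp h)
  have h2' : 0 < Nat.card N := Nat.card_pos
  have h3 : 0 < Nat.card (G ⧸ N) := Nat.card_pos
  have h4 : 2 ≤ Nat.card N := by omega
  nlinarith

/-- The statement proved by induction: existence and conjugacy of Carter subgroups. -/
def CarterP (n : ℕ) : Prop :=
  ∀ (G : Type u) [Group G] [Finite G] [Group.IsSolvable G], Nat.card G = n →
    (∃ C : Subgroup G, Cfsg.IsCarterSubgroup C) ∧
    (∀ C₁ C₂ : Subgroup G, Cfsg.IsCarterSubgroup C₁ → Cfsg.IsCarterSubgroup C₂ →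
      ∃ g : G, C₂ = cj g C₁)

lemma ctr_rel_to_sub {G : Type u} [Group G] [Finite G] {C K : Subgroup G} (h : RelCarter C K) :
    Cfsg.IsCarterSubgroup (C.subgroupOf K) := by
  obtain ⟨hCK, hnil, hself⟩ := h
  rw [ctr_iff_rel]
  refine ⟨le_top, ?_, ?_⟩
  · haveI := hnil
    exact Group.nilpotent_of_mulEquiv (Subgroup.subgroupOfEquivOfLe hCK).symm
  · intro k _ hk
    rw [Subgroup.mem_subgroupOf]
    apply hself k k.2
    intro x hx
    obtain ⟨y, hy, rfl⟩ := mem_cj'.mp hx
    have hyK : y ∈ K := hCK hy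
    have h1 : (k * ⟨y, hyK⟩ * k⁻¹ : K) ∈ C.subgroupOf K :=
      hk (conj_mem_cj (by rw [Subgroup.mem_subgroupOf]; exact hy))
    rw [Subgroup.mem_subgroupOf] at h1
    simpa using h1

lemma ctr_rel_exists {G : Type u} [Group G] [Finite G] [Group.IsSolvable G] (K : Subgroup G)
    (h : CarterP.{u} (Nat.card K)) : ∃ C, RelCarter C K := by
  obtain ⟨C', hC'⟩ := (h K rfl).1
  rw [ctr_iff_rel] at hC'
  obtain ⟨-, hnil, hself⟩ := hC'
  refine ⟨C'.map K.subtype, Subgroup.map_subtype_le C', ?_, ?_⟩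
  · haveI := hnil
    exact Group.nilpotent_of_mulEquiv (Subgroup.equivMapOfInjective C' K.subtype
      (Subgroup.subtype_injective K))
  · intro k hk hkC
    have h1 : (⟨k, hk⟩ : K) ∈ C' := by
      apply hself _ (Subgroup.mem_top _)
      intro x hx
      obtain ⟨y, hy, rfl⟩ := mem_cj'.mp hx
      have h2 : k * (y : G) * k⁻¹ ∈ C'.map K.subtype :=
        hkC (conj_mem_cj ⟨y, hy, rfl⟩)
      obtain ⟨z, hz, hzeq⟩ := h2
      have h3 : z = (⟨k, hk⟩ : K) * y * (⟨k, hk⟩ : K)⁻¹ := by
        apply Subtype.ext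
        simpa using hzeq
      rw [← h3]
      exact hz
    exact ⟨⟨k, hk⟩, h1, rfl⟩

lemma ctr_rel_conj {G : Type u} [Group G] [Finite G] [Group.IsSolvable G] (K : Subgroup G)
    (h : CarterP.{u} (Nat.card K)) {C₁ C₂ : Subgroup G} (h1 : RelCarter C₁ K)
    (h2 : RelCarter C₂ K) : ∃ k ∈ K, C₂ = cj k C₁ := by
  obtain ⟨k, hk⟩ := (h K rfl).2 _ _ (ctr_rel_to_sub h1) (ctr_rel_to_sub h2)
  refine ⟨k, k.2, ?_⟩
  ext x
  constructor
  · intro hx
    have hxK : x ∈ K := h2.1 hx
    have h3 : (⟨x, hxK⟩ : K) ∈ C₂.subgroupOf K := by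
      rw [Subgroup.mem_subgroupOf]; exact hx
    rw [hk, mem_cj, Subgroup.mem_subgroupOf] at h3
    rw [mem_cj]
    simpa using h3
  · intro hx
    have hxK : x ∈ K := by
      obtain ⟨y, hy, rfl⟩ := mem_cj'.mp hx
      exact K.mul_mem (K.mul_mem k.2 (h1.1 hy)) (K.inv_mem k.2)
    have h3 : (⟨x, hxK⟩ : K) ∈ C₂.subgroupOf K := by
      rw [hk, mem_cj, Subgroup.mem_subgroupOf]
      rw [mem_cj] at hx
      simpa using hx
    rw [Subgroup.mem_subgroupOf] at h3
    exact h3

/-- pulled-back normalizer condition. -/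
lemma ctr_nc_lift {G : Type u} [Group G] [Finite G] {Q : Type u} [Group Q] (f : G →* Q)
    (H K : Subgroup G) (hker : f.ker ≤ H) (hHK : H ≤ K) (hne : H ≠ K)
    (hnil : Group.IsNilpotent (K.map f)) : ∃ k ∈ K, k ∉ H ∧ cj k H ≤ H := by
  have hcm : ∀ y : G, f y ∈ H.map f → y ∈ H := by
    intro y hy
    have h2 : y ∈ (H.map f).comap f := hy
    rw [Subgroup.comap_map_eq, sup_eq_left.mpr hker] at h2
    exact h2
  have hlt : (H.map f).subgroupOf (K.map f) < ⊤ := by
    rw [lt_top_iff_ne_top]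
    intro h
    rw [Subgroup.subgroupOf_eq_top] at h
    apply hne
    apply le_antisymm hHK
    intro k hk
    exact hcm k (h (Subgroup.mem_map_of_mem f hk))
  haveI := hnil
  have hnc := Group.normalizerCondition_of_isNilpotent (G := K.map f) _ hlt
  obtain ⟨x, hxN, hxH⟩ := SetLike.exists_of_lt hnc
  obtain ⟨k, hkK, hkx⟩ := x.2
  refine ⟨k, hkK, ?_, ?_⟩
  · intro hkH
    apply hxH
    rw [Subgroup.mem_subgroupOf, ← hkx]
    exact Subgroup.mem_map_of_mem f hkH
  · intro y hy
    obtain ⟨h, hh, rfl⟩ := mem_cj'.mp hy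
    have h1 : (⟨f h, Subgroup.mem_map_of_mem f (hHK hh)⟩ : K.map f) ∈
        (H.map f).subgroupOf (K.map f) := by
      rw [Subgroup.mem_subgroupOf]; exact Subgroup.mem_map_of_mem f hh
    have h2 := (Subgroup.mem_normalizer_iff.mp hxN _).mp h1
    rw [Subgroup.mem_subgroupOf] at h2
    apply hcm
    rw [map_mul, map_mul, map_inv, hkx]
    simpa using h2

lemma ctr_inf_normal {G : Type u} [Group G] (C X N : Subgroup G) [hN : N.Normal]
    (hab : ∀ x ∈ N, ∀ y ∈ N, x * y = y * x) (hsup : C ⊔ N = ⊤) (hCX : C ≤ X) :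
    (X ⊓ N).Normal := by
  constructor
  intro n hn g
  have hg : g ∈ ((C ⊔ N : Subgroup G) : Set G) := by rw [hsup]; trivial
  rw [Subgroup.mul_normal] at hg
  obtain ⟨c, hc, m, hm, rfl⟩ := Set.mem_mul.mp hg
  have e : c * m * n * (c * m)⁻¹ = c * n * c⁻¹ := by
    have := hab m hm n hn.2
    calc c * m * n * (c * m)⁻¹ = c * (m * n) * m⁻¹ * c⁻¹ := by group
      _ = c * (n * m) * m⁻¹ * c⁻¹ := by rw [this]
      _ = c * n * c⁻¹ := by group
  rw [e]
  exact ⟨X.mul_mem (X.mul_mem (hCX hc) hn.1) (X.inv_mem (hCX hc)), hN.conj_mem n hn.2 c⟩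

lemma ctr_coatom_of_sup {G : Type u} [Group G] (C N : Subgroup G) [N.Normal]
    (hab : ∀ x ∈ N, ∀ y ∈ N, x * y = y * x)
    (hmin : ∀ M : Subgroup G, M.Normal → M ≤ N → M = ⊥ ∨ M = N)
    (hsup : C ⊔ N = ⊤) (hne : C ≠ ⊤) : IsCoatom C := by
  refine ⟨hne, ?_⟩
  intro X hX
  have hXN : (X ⊓ N).Normal := ctr_inf_normal C X N hab hsup hX.le
  rcases hmin _ hXN inf_le_right with h | h
  · exfalso
    apply hX.not_ge
    intro x hx
    have hg : x ∈ ((C ⊔ N : Subgroup G) : Set G) := by rw [hsup]; trivial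
    rw [Subgroup.mul_normal] at hg
    obtain ⟨c, hc, m, hm, rfl⟩ := Set.mem_mul.mp hg
    have hmX : m ∈ X := by
      have : m = c⁻¹ * (c * m) := by group
      rw [this]
      exact X.mul_mem (X.inv_mem (hX.le hc)) hx
    have : m ∈ X ⊓ N := ⟨hmX, hm⟩
    rw [h, Subgroup.mem_bot] at this
    rw [this, mul_one]
    exact hc
  · have hNX : N ≤ X := inf_eq_right.mp h
    rw [eq_top_iff, ← hsup]
    exact sup_le hX.le hNX

lemma ctr_of_coatom {G : Type u} [Group G] [Finite G] (N M : Subgroup G) [N.Normal]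
    (hab : ∀ x ∈ N, ∀ y ∈ N, x * y = y * x)
    (hmin : ∀ L : Subgroup G, L.Normal → L ≤ N → L = ⊥ ∨ L = N)
    (hnil : Group.IsNilpotent (G ⧸ N)) (hM : IsCoatom M) (hMn : ¬ M.Normal) :
    Cfsg.IsCarterSubgroup M := by
  have hnorm : Subgroup.normalizer (M : Set G) = M := by
    by_contra hne
    have hlt : M < Subgroup.normalizer (M : Set G) :=
      lt_of_le_of_ne Subgroup.le_normalizer (Ne.symm hne)
    have := hM.2 _ hlt
    exact hMn (Subgroup.normalizer_eq_top_iff.mp this)
  have hNM : ¬ N ≤ M := by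
    intro hNM
    haveI := hnil
    have hnil' : Group.IsNilpotent ((⊤ : Subgroup G).map (QuotientGroup.mk' N)) := inferInstance
    obtain ⟨k, -, hkM, hk⟩ := ctr_nc_lift (QuotientGroup.mk' N) M ⊤
      (by rw [QuotientGroup.ker_mk']; exact hNM) le_top hM.1 hnil'
    have hkn := mem_normalizer_of_cj_le hk
    rw [hnorm] at hkn
    exact hkM hkn
  have hsup : M ⊔ N = ⊤ := by
    apply hM.2
    apply lt_of_le_of_ne le_sup_left
    intro h
    apply hNM
    rw [h]
    exact le_sup_right
  have hMN : (M ⊓ N).Normal := ctr_inf_normal M M N hab hsup le_rfl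
  have hbot : M ⊓ N = ⊥ := by
    rcases hmin _ hMN inf_le_right with h | h
    · exact h
    · exact absurd (inf_eq_right.mp h) hNM
  refine ⟨?_, hnorm⟩
  have hinj : Function.Injective ((QuotientGroup.mk' N).comp M.subtype) := by
    rw [← MonoidHom.ker_eq_bot_iff, eq_bot_iff]
    intro x hx
    rw [MonoidHom.mem_ker, MonoidHom.comp_apply, ← MonoidHom.mem_ker, QuotientGroup.ker_mk'] at hx
    have : (x : G) ∈ M ⊓ N := ⟨x.2, hx⟩
    rw [hbot, Subgroup.mem_bot] at this
    rw [Subgroup.mem_bot]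
    exact Subtype.ext this
  haveI := hnil
  have e := MonoidHom.ofInjective hinj
  exact Group.nilpotent_of_mulEquiv e.symm

lemma ctr_nil_of_top {G : Type u} [Group G] (h : Group.IsNilpotent (⊤ : Subgroup G)) :
    Group.IsNilpotent G := by
  haveI := h
  exact Group.nilpotent_of_mulEquiv Subgroup.topEquiv

/-- images of Carter subgroups are Carter subgroups (given conjugacy in smaller groups). -/
lemma ctr_map {n : ℕ} (ih : ∀ m < n, CarterP.{u} m) {G : Type u} [Group G] [Finite G]
    [Group.IsSolvable G] (hn : Nat.card G = n) (N : Subgroup G) [N.Normal] {C : Subgroup G}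
    (hC : Cfsg.IsCarterSubgroup C) :
    Cfsg.IsCarterSubgroup (C.map (QuotientGroup.mk' N)) := by
  have hC' := (ctr_iff_rel C).mp hC
  refine ⟨?_, le_antisymm ?_ Subgroup.le_normalizer⟩
  · haveI := hC.1
    exact Group.nilpotent_of_surjective ((QuotientGroup.mk' N).subgroupMap C)
      (MonoidHom.subgroupMap_surjective _ _)
  · intro x hx
    obtain ⟨g, rfl⟩ := QuotientGroup.mk'_surjective N x
    have hcomap : ∀ y : G, y ∈ C ⊔ N ↔ (QuotientGroup.mk' N) y ∈ C.map (QuotientGroup.mk' N) := by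
      intro y
      have : (C.map (QuotientGroup.mk' N)).comap (QuotientGroup.mk' N) = C ⊔ N := by
        rw [Subgroup.comap_map_eq, QuotientGroup.ker_mk']
      rw [← this]; rfl
    have hgH : cj g (C ⊔ N) ≤ C ⊔ N := by
      intro y hy
      obtain ⟨h, hh, rfl⟩ := mem_cj'.mp hy
      rw [hcomap] at hh ⊢
      rw [map_mul, map_mul, map_inv]
      exact (Subgroup.mem_normalizer_iff.mp hx _).mp hh
    by_cases hH : C ⊔ N = ⊤
    · rw [← hcomap, hH]; trivial
    · have hlt : Nat.card (C ⊔ N : Subgroup G) < n := by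
        rw [← hn]; exact ctr_card_lt hH
      have hP := ih _ hlt
      have r1 : RelCarter C (C ⊔ N) :=
        ⟨le_sup_left, hC'.2.1, fun k _ hk => hC'.2.2 k (Subgroup.mem_top k) hk⟩
      have r2 : RelCarter (cj g C) (C ⊔ N) :=
        ctr_rel_cj hC' (Subgroup.mem_top g) ((cj_mono le_sup_left).trans hgH) le_top
      obtain ⟨h, hh, heq⟩ := ctr_rel_conj (C ⊔ N) hP r1 r2
      have h3 : h⁻¹ * g ∈ C := by
        apply hC'.2.2 _ (Subgroup.mem_top _)
        rw [cj_mul, heq, cj_inv_cj]
      rw [← hcomap]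
      have e : g = h * (h⁻¹ * g) := by group
      rw [e]
      exact (C ⊔ N).mul_mem hh ((le_sup_left : C ≤ C ⊔ N) h3)

theorem carterP_all : ∀ n, CarterP.{u} n := by
  intro n
  induction n using Nat.strong_induction_on with
  | _ n ih =>
  intro G _ _ _ hn
  by_cases hnil : Group.IsNilpotent G
  · refine ⟨⟨⊤, ?_, ?_⟩, ?_⟩
    · exact Group.nilpotent_of_mulEquiv Subgroup.topEquiv.symm
    · exact Subgroup.normalizer_eq_top_iff.mpr inferInstance
    · intro C₁ C₂ h1 h2
      exact ⟨1, by rw [cj_one, ctr_top_of_nil h1, ctr_top_of_nil h2]⟩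
  · have hnt : Nontrivial G := by
      by_contra h
      rw [not_nontrivial_iff_subsingleton] at h
      exact hnil inferInstance
    obtain ⟨N, hNn, hNbot, hNmin⟩ := Cfsg.Agent.S0048.exists_minimal_normal (G := G)
    haveI := hNn
    have hab := Cfsg.Agent.Helper4.abelian_of_min_normal N hNbot hNmin
    have hcardQ : Nat.card (G ⧸ N) < n := by
      rw [← hn]; exact ctr_card_quot_lt N hNbot
    have hPQ := ih _ hcardQ
    have hker : (QuotientGroup.mk' N).ker = N := QuotientGroup.ker_mk' N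
    have hsurj := QuotientGroup.mk'_surjective N
    have hsub : ∀ K : Subgroup G, K ≠ ⊤ → CarterP.{u} (Nat.card K) :=
      fun K hK => ih _ (by rw [← hn]; exact ctr_card_lt hK)
    have hnotTop : ∀ C : Subgroup G, Cfsg.IsCarterSubgroup C → C ≠ ⊤ := by
      intro C hC h
      apply hnil
      have := hC.1
      rw [h] at this
      exact ctr_nil_of_top this
    constructor
    · -- existence
      obtain ⟨Kb, hKb⟩ := (hPQ (G ⧸ N) rfl).1
      by_cases hK : Kb.comap (QuotientGroup.mk' N) = ⊤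
      · have hKbtop : Kb = ⊤ := by
          rw [← Subgroup.map_comap_eq_self_of_surjective hsurj Kb, hK]
          exact Subgroup.map_top_of_surjective _ hsurj
        have hQnil : Group.IsNilpotent (G ⧸ N) := by
          have := hKb.1
          rw [hKbtop] at this
          exact ctr_nil_of_top this
        have : ∃ M : Subgroup G, IsCoatom M ∧ ¬ M.Normal := by
          by_contra hall
          push Not at hall
          exact hnil (((Group.isNilpotent_of_finite_tfae (G := G)).out 0 2).mpr hall)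
        obtain ⟨M, hM, hMn⟩ := this
        exact ⟨M, ctr_of_coatom N M hab hNmin hQnil hM hMn⟩
      · obtain ⟨K, hKdef⟩ : ∃ K : Subgroup G, K = Kb.comap (QuotientGroup.mk' N) := ⟨_, rfl⟩
        rw [← hKdef] at hK
        have hNK : N ≤ K := by
          rw [hKdef]
          intro x hx
          rw [Subgroup.mem_comap]
          have : (QuotientGroup.mk' N) x = 1 := by
            rw [← MonoidHom.mem_ker, hker]; exact hx
          rw [this]
          exact Kb.one_mem
        have hKmap : K.map (QuotientGroup.mk' N) = Kb := by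
          rw [hKdef]; exact Subgroup.map_comap_eq_self_of_surjective hsurj Kb
        obtain ⟨C, hCK, hCnil, hCself⟩ := ctr_rel_exists K (hsub K hK)
        have hCN : C ⊔ N = K := by
          by_contra hne
          have hle : C ⊔ N ≤ K := sup_le hCK hNK
          have hnilK : Group.IsNilpotent (K.map (QuotientGroup.mk' N)) := by
            rw [hKmap]; exact hKb.1
          obtain ⟨k, hkK, hkH, hk⟩ := ctr_nc_lift (QuotientGroup.mk' N) (C ⊔ N) K
            (by rw [hker]; exact le_sup_right) hle hne hnilK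
          have hHtop : C ⊔ N ≠ ⊤ := fun h => hK (top_le_iff.mp (h ▸ hle))
          have r1 : RelCarter C (C ⊔ N) :=
            ⟨le_sup_left, hCnil, fun x hx hxc => hCself x (hle hx) hxc⟩
          have r2 : RelCarter (cj k C) (C ⊔ N) :=
            ctr_rel_cj ⟨hCK, hCnil, hCself⟩ hkK ((cj_mono le_sup_left).trans hk) hle
          obtain ⟨h, hh, heq⟩ := ctr_rel_conj (C ⊔ N) (hsub _ hHtop) r1 r2
          have h3 : h⁻¹ * k ∈ C := by
            apply hCself _ (K.mul_mem (K.inv_mem (hle hh)) hkK)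
            rw [cj_mul, heq, cj_inv_cj]
          apply hkH
          have e : k = h * (h⁻¹ * k) := by group
          rw [e]
          exact (C ⊔ N).mul_mem hh ((le_sup_left : C ≤ C ⊔ N) h3)
        refine ⟨C, hCnil, le_antisymm ?_ Subgroup.le_normalizer⟩
        intro g hg
        have hgC : cj g C = C := cj_eq_self_of_mem_normalizer hg
        have hgK : cj g K = K := by rw [← hCN, cj_sup, hgC, cj_eq_of_normal]
        have hfg : (QuotientGroup.mk' N) g ∈ Kb := by
          have h4 : (QuotientGroup.mk' N) g ∈ Subgroup.normalizer (Kb : Set (G ⧸ N)) := by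
            apply mem_normalizer_of_cj_le
            intro y hy
            obtain ⟨z, hz, rfl⟩ := mem_cj'.mp hy
            obtain ⟨z, rfl⟩ := hsurj z
            have hzK : z ∈ K := by rw [hKdef]; exact hz
            have h5 : g * z * g⁻¹ ∈ K := by
              rw [← hgK]; exact conj_mem_cj hzK
            rw [hKdef, Subgroup.mem_comap, map_mul, map_mul, map_inv] at h5
            exact h5
          rw [hKb.2] at h4
          exact h4
        have hgK2 : g ∈ K := by rw [hKdef]; exact hfg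
        exact hCself g hgK2 (by rw [hgC])
    · -- conjugacy
      intro C₁ C₂ h1 h2
      have m1 := ctr_map ih hn N h1
      have m2 := ctr_map ih hn N h2
      obtain ⟨gb, hgb⟩ := (hPQ (G ⧸ N) rfl).2 _ _ m1 m2
      obtain ⟨g, rfl⟩ := hsurj gb
      have h1' : Cfsg.IsCarterSubgroup (cj g C₁) := ctr_cj g h1
      have hsupeq : cj g C₁ ⊔ N = C₂ ⊔ N := by
        have e1 : ((cj g C₁).map (QuotientGroup.mk' N)).comap (QuotientGroup.mk' N)
            = cj g C₁ ⊔ N := by rw [Subgroup.comap_map_eq, hker]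
        have e2 : (C₂.map (QuotientGroup.mk' N)).comap (QuotientGroup.mk' N) = C₂ ⊔ N := by
          rw [Subgroup.comap_map_eq, hker]
        rw [← e1, ← e2, hgb, ctr_map_cj]
      suffices ∃ x, C₂ = cj x (cj g C₁) by
        obtain ⟨x, hx⟩ := this
        exact ⟨x * g, by rw [cj_mul]; exact hx⟩
      obtain ⟨A, hA⟩ : ∃ A : Subgroup G, A = cj g C₁ := ⟨_, rfl⟩
      rw [← hA] at h1' hsupeq ⊢
      by_cases hK : C₂ ⊔ N = ⊤
      · have hA1 : IsCoatom A :=
          ctr_coatom_of_sup A N hab hNmin (hsupeq.trans hK) (hnotTop A h1')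
        have hC1 : IsCoatom C₂ := ctr_coatom_of_sup C₂ N hab hNmin hK (hnotTop C₂ h2)
        have key : ∀ A B : Subgroup G, Cfsg.IsCarterSubgroup A → Cfsg.IsCarterSubgroup B →
            IsCoatom B → A.normalCore ≠ ⊥ → ∃ x, B = cj x A := by
          intro A B hA hB hBco hcore
          haveI : (A.normalCore).Normal := Subgroup.normalCore_normal A
          have hc : Nat.card (G ⧸ A.normalCore) < n := by
            rw [← hn]; exact ctr_card_quot_lt _ hcore
          have q1 := ctr_map ih hn A.normalCore hA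
          have q2 := ctr_map ih hn A.normalCore hB
          obtain ⟨xb, hxb⟩ := (ih _ hc (G ⧸ A.normalCore) rfl).2 _ _ q1 q2
          obtain ⟨x, rfl⟩ := QuotientGroup.mk'_surjective _ xb
          refine ⟨x, ?_⟩
          have e : B ⊔ A.normalCore = cj x A ⊔ A.normalCore := by
            have e1 : ((cj x A).map (QuotientGroup.mk' A.normalCore)).comap
                (QuotientGroup.mk' A.normalCore) = cj x A ⊔ A.normalCore := by
              rw [Subgroup.comap_map_eq, QuotientGroup.ker_mk']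
            have e2 : (B.map (QuotientGroup.mk' A.normalCore)).comap
                (QuotientGroup.mk' A.normalCore) = B ⊔ A.normalCore := by
              rw [Subgroup.comap_map_eq, QuotientGroup.ker_mk']
            rw [← e1, ← e2, hxb, ctr_map_cj]
          have hle : A.normalCore ≤ cj x A := by
            have := cj_mono (g := x) (Subgroup.normalCore_le A)
            rwa [cj_eq_of_normal] at this
          have hB_le : B ≤ cj x A := by
            calc B ≤ B ⊔ A.normalCore := le_sup_left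
              _ = cj x A ⊔ A.normalCore := e
              _ = cj x A := sup_eq_left.mpr hle
          have hne : cj x A ≠ ⊤ := hnotTop _ (ctr_cj x hA)
          rcases hBco.le_iff.mp hB_le with h | h
          · exact absurd h hne
          · exact h.symm
        by_cases hcA : A.normalCore = ⊥
        · by_cases hcC : C₂.normalCore = ⊥
          · obtain ⟨x, hx⟩ := Cfsg.Agent.S0551.result A C₂ hA1 hC1 hcA hcC
            exact ⟨x, hx.symm⟩
          · obtain ⟨x, hx⟩ := key C₂ A h2 h1' hA1 hcC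
            exact ⟨x⁻¹, by rw [hx, cj_inv_cj]⟩
        · exact key A C₂ h1' h2 hC1 hcA
      · have hA' := (ctr_iff_rel A).mp h1'
        have hC' := (ctr_iff_rel C₂).mp h2
        have r1 : RelCarter A (C₂ ⊔ N) :=
          ⟨hsupeq ▸ le_sup_left, hA'.2.1, fun k _ hk => hA'.2.2 k (Subgroup.mem_top k) hk⟩
        have r2 : RelCarter C₂ (C₂ ⊔ N) :=
          ⟨le_sup_left, hC'.2.1, fun k _ hk => hC'.2.2 k (Subgroup.mem_top k) hk⟩
        obtain ⟨k, -, hk⟩ := ctr_rel_conj _ (hsub _ hK) r1 r2
        exact ⟨k, hk⟩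

theorem carter_exists (G : Type u) [Group G] [Finite G] [Group.IsSolvable G] :
    ∃ C : Subgroup G, Cfsg.IsCarterSubgroup C :=
  (carterP_all _ G rfl).1

theorem carter_conj {G : Type u} [Group G] [Finite G] [Group.IsSolvable G]
    {C₁ C₂ : Subgroup G} (h1 : Cfsg.IsCarterSubgroup C₁) (h2 : Cfsg.IsCarterSubgroup C₂) :
    ∃ g : G, C₂ = cj g C₁ :=
  (carterP_all _ G rfl).2 C₁ C₂ h1 h2

end Cfsg.Agent.Helper17
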