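import Mathlib

/-!
# Counting conjugacy classes of `S_n` and `A_n` through cycle types (helper17)
-/

set_option autoImplicit false

namespace Cfsg.Agent.Helper17.CycTypes

open Equiv Equiv.Perm

/-- valid cycle types in degree `n` -/
def VT (n : ℕ) : Set (Multiset ℕ) := {m | m.sum ≤ n ∧ ∀ a ∈ m, 2 ≤ a}

/-- even cycle types -/
def VTe (n : ℕ) : Set (Multiset ℕ) := {m | m ∈ VT n ∧ Even (m.sum + Multiset.card m)}

/-- odd cycle types -/
def VTo (n : ℕ) : Set (Multiset ℕ) := {m | m ∈ VT n ∧ ¬ Even (m.sum + Multiset.card m)}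

/-- split cycle types -/
def VTs (n : ℕ) : Set (Multiset ℕ) :=
  {m | m ∈ VT n ∧ (∀ c ∈ m, Odd c) ∧ n ≤ m.sum + 1 ∧ ∀ i, m.count i ≤ 1}

/-- the minimum of a multiset of naturals -/
noncomputable def mn (m : Multiset ℕ) : ℕ := sInf {x | x ∈ m}

theorem mn_mem {m : Multiset ℕ} (h : m ≠ 0) : mn m ∈ m := by
  obtain ⟨a, ha⟩ := Multiset.exists_mem_of_ne_zero h
  exact Nat.sInf_mem (s := {x | x ∈ m}) ⟨a, ha⟩

theorem mn_le {m : Multiset ℕ} {x : ℕ} (hx : x ∈ m) : mn m ≤ x :=
  Nat.sInf_le (s := {x | x ∈ m}) hx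

/-- decrement the minimum -/
noncomputable def dec (m : Multiset ℕ) : Multiset ℕ := (mn m - 1) ::ₘ m.erase (mn m)

theorem dec_key {m m' : Multiset ℕ} (h1 : 1 ≤ mn m) (h1' : 1 ≤ mn m')
    (he : dec m = dec m') : mn m' ≤ mn m := by
  have hmem : mn m - 1 ∈ dec m' := by rw [← he]; exact Multiset.mem_cons_self _ _
  rcases Multiset.mem_cons.mp hmem with h2 | h2
  · omega
  · have h3 := mn_le (Multiset.mem_of_mem_erase h2)
    omega

theorem dec_inj {m m' : Multiset ℕ} (h : m ≠ 0) (h' : m' ≠ 0) (h1 : 1 ≤ mn m) (h1' : 1 ≤ mn m')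
    (he : dec m = dec m') : m = m' := by
  have ha := mn_mem h
  have ha' := mn_mem h'
  have e1 : mn m = mn m' := le_antisymm (dec_key h1' h1 he.symm) (dec_key h1 h1' he)
  unfold dec at he
  rw [e1] at he
  have e2 : m.erase (mn m') = m'.erase (mn m') := (Multiset.cons_inj_right _).mp he
  calc m = mn m ::ₘ m.erase (mn m) := (Multiset.cons_erase ha).symm
    _ = mn m' ::ₘ m.erase (mn m') := by rw [e1]
    _ = mn m' ::ₘ m'.erase (mn m') := by rw [e2]
    _ = m' := Multiset.cons_erase ha'

theorem sum_dec {m : Multiset ℕ} (h : m ≠ 0) (h1 : 1 ≤ mn m) : (dec m).sum + 1 = m.sum := by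
  have ha := mn_mem h
  have := Multiset.sum_erase ha
  unfold dec
  rw [Multiset.sum_cons]
  omega

theorem card_dec {m : Multiset ℕ} (h : m ≠ 0) : Multiset.card (dec m) = Multiset.card m := by
  have ha := mn_mem h
  unfold dec
  rw [Multiset.card_cons, Multiset.card_erase_of_mem ha, Nat.pred_eq_sub_one]
  have : 0 < Multiset.card m := Multiset.card_pos.mpr h
  omega

theorem VT_eq_range (n : ℕ) : VT n = Set.range (fun g : Perm (Fin n) => g.cycleType) := by
  ext m
  constructor
  · rintro ⟨h1, h2⟩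
    exact (Equiv.Perm.exists_with_cycleType_iff (Fin n)).mpr ⟨by simpa using h1, h2⟩
  · rintro ⟨g, rfl⟩
    exact ⟨by simpa using g.sum_cycleType_le, fun a ha => two_le_of_mem_cycleType ha⟩

theorem VT_finite (n : ℕ) : (VT n).Finite := by
  rw [VT_eq_range]; exact Set.finite_range _

theorem VTe_finite (n : ℕ) : (VTe n).Finite := (VT_finite n).subset fun _ h => h.1
theorem VTo_finite (n : ℕ) : (VTo n).Finite := (VT_finite n).subset fun _ h => h.1
theorem VTs_finite (n : ℕ) : (VTs n).Finite := (VT_finite n).subset fun _ h => h.1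

theorem VT_split (n : ℕ) : (VT n).ncard = (VTe n).ncard + (VTo n).ncard := by
  have h1 : VT n = VTe n ∪ VTo n := by
    ext m
    constructor
    · intro h
      by_cases he : Even (m.sum + Multiset.card m)
      · exact Or.inl ⟨h, he⟩
      · exact Or.inr ⟨h, he⟩
    · rintro (h | h) <;> exact h.1
  have h2 : Disjoint (VTe n) (VTo n) := by
    rw [Set.disjoint_left]
    intro m h h'
    exact h'.2 h.2
  rw [h1, Set.ncard_union_eq h2 (VTe_finite n) (VTo_finite n)]

/-- the number of conjugacy classes of `S_n` is the number of cycle types -/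
theorem card_conj_perm (n : ℕ) : Nat.card (ConjClasses (Perm (Fin n))) = (VT n).ncard := by
  let f : ConjClasses (Perm (Fin n)) → Multiset ℕ :=
    Quotient.lift (fun g : Perm (Fin n) => g.cycleType)
      (fun a b h => Equiv.Perm.isConj_iff_cycleType_eq.mp h)
  have hf : Function.Injective f := by
    intro c c' h
    obtain ⟨g, rfl⟩ := ConjClasses.exists_rep c
    obtain ⟨g', rfl⟩ := ConjClasses.exists_rep c'
    exact ConjClasses.mk_eq_mk_iff_isConj.mpr (Equiv.Perm.isConj_iff_cycleType_eq.mpr h)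
  have hr : Set.range f = VT n := by
    rw [VT_eq_range]
    ext m
    constructor
    · rintro ⟨c, rfl⟩
      obtain ⟨g, rfl⟩ := ConjClasses.exists_rep c
      exact ⟨g, rfl⟩
    · rintro ⟨g, rfl⟩
      exact ⟨ConjClasses.mk g, rfl⟩
  rw [Nat.card_congr (Equiv.ofInjective f hf), hr, Nat.card_coe_set_eq]

theorem all_odd_even (m : Multiset ℕ) (h : ∀ c ∈ m, Odd c) : Even (m.sum + Multiset.card m) := by
  induction m using Multiset.induction_on with
  | empty => simp
  | cons a s ih =>
    have h1 := ih (fun c hc => h c (Multiset.mem_cons_of_mem hc))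
    have h2 : Odd a := h a (Multiset.mem_cons_self _ _)
    rw [Multiset.sum_cons, Multiset.card_cons]
    obtain ⟨k, hk⟩ := h1
    obtain ⟨l, hl⟩ := h2
    exact ⟨k + l + 1, by omega⟩

/-- fewer split types than odd types -/
theorem VTs_lt_VTo (n : ℕ) (hn : 5 ≤ n) : (VTs n).ncard < (VTo n).ncard := by
  have hne : ∀ m ∈ VTs n, m ≠ 0 ∧ 3 ≤ mn m := by
    intro m hm
    have h0 : m ≠ 0 := by
      rintro rfl
      have := hm.2.2.1
      simp at this
      omega
    refine ⟨h0, ?_⟩
    have ha := mn_mem h0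
    have h2 := hm.1.2 _ ha
    obtain ⟨k, hk⟩ := hm.2.1 _ ha
    omega
  have hinj : Set.InjOn dec (VTs n) := by
    intro m hm m' hm' he
    exact dec_inj (hne m hm).1 (hne m' hm').1 (by have := (hne m hm).2; omega)
      (by have := (hne m' hm').2; omega) he
  have hsub : dec '' VTs n ⊂ VTo n := by
    rw [Set.ssubset_iff_of_subset]
    · refine ⟨{2}, ⟨⟨by simp; omega, by simp⟩, by simp; decide⟩, ?_⟩
      rintro ⟨m, hm, he⟩
      have h1 := sum_dec (hne m hm).1 (by have := (hne m hm).2; omega)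
      rw [he] at h1
      have h2 := hm.2.2.1
      simp at h1
      omega
    · rintro _ ⟨m, hm, rfl⟩
      have h0 := (hne m hm).1
      have h3 := (hne m hm).2
      have h1 := sum_dec h0 (by omega)
      have h2 := card_dec h0
      have ha := mn_mem h0
      refine ⟨⟨by have := hm.1.1; omega, ?_⟩, ?_⟩
      · intro a ha'
        unfold dec at ha'
        rcases Multiset.mem_cons.mp ha' with h | h
        · omega
        · exact hm.1.2 a (Multiset.mem_of_mem_erase h)
      · have h4 := all_odd_even m hm.2.1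
        rw [h2]
        intro h5
        obtain ⟨k, hk⟩ := h4
        obtain ⟨l, hl⟩ := h5
        omega
  calc (VTs n).ncard = (dec '' VTs n).ncard := (Set.InjOn.ncard_image hinj).symm
    _ < (VTo n).ncard := Set.ncard_lt_ncard hsub (VTo_finite n)


/-- types of full support in degree `n + 1` -/
def VTf (n : ℕ) : Set (Multiset ℕ) := {m | m ∈ VT (n + 1) ∧ m.sum = n + 1}

/-- shrink a full-support type of degree `n + 1` to a type of degree `n` -/
noncomputable def shr (m : Multiset ℕ) : Multiset ℕ := if mn m = 2 then m.erase 2 else dec m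

theorem VT_succ_le (n : ℕ) : (VT (n + 1)).ncard ≤ 2 * (VT n).ncard := by
  have hsub : VT (n + 1) ⊆ VT n ∪ VTf n := by
    intro m hm
    by_cases h : m.sum = n + 1
    · exact Or.inr ⟨hm, h⟩
    · exact Or.inl ⟨by have := hm.1; omega, hm.2⟩
  have hne : ∀ m ∈ VTf n, m ≠ 0 ∧ 2 ≤ mn m := by
    intro m hm
    have h0 : m ≠ 0 := by
      rintro rfl
      have := hm.2
      simp at this
    exact ⟨h0, hm.1.2 _ (mn_mem h0)⟩
  have hmaps : Set.MapsTo shr (VTf n) (VT n) := by
    intro m hm
    obtain ⟨h0, h2⟩ := hne m hm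
    have ha := mn_mem h0
    unfold shr
    split_ifs with h
    · rw [h] at ha
      have h3 := Multiset.sum_erase ha
      exact ⟨by have := hm.2; omega, fun a ha' => hm.1.2 a (Multiset.mem_of_mem_erase ha')⟩
    · have h1 := sum_dec h0 (by omega)
      refine ⟨by have := hm.2; omega, ?_⟩
      intro a ha'
      unfold dec at ha'
      rcases Multiset.mem_cons.mp ha' with h' | h'
      · omega
      · exact hm.1.2 a (Multiset.mem_of_mem_erase h')
  have hinj : Set.InjOn shr (VTf n) := by
    intro m hm m' hm' he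
    obtain ⟨h0, h2⟩ := hne m hm
    obtain ⟨h0', h2'⟩ := hne m' hm'
    have ha := mn_mem h0
    have ha' := mn_mem h0'
    unfold shr at he
    by_cases h : mn m = 2 <;> by_cases h' : mn m' = 2
    · rw [if_pos h, if_pos h'] at he
      rw [h] at ha; rw [h'] at ha'
      calc m = 2 ::ₘ m.erase 2 := (Multiset.cons_erase ha).symm
        _ = 2 ::ₘ m'.erase 2 := by rw [he]
        _ = m' := Multiset.cons_erase ha'
    · rw [if_pos h, if_neg h'] at he
      rw [h] at ha
      have h3 := Multiset.sum_erase ha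
      have h4 := sum_dec h0' (by omega)
      rw [he] at h3
      have := hm.2; have := hm'.2
      omega
    · rw [if_neg h, if_pos h'] at he
      rw [h'] at ha'
      have h3 := Multiset.sum_erase ha'
      have h4 := sum_dec h0 (by omega)
      rw [← he] at h3
      have := hm.2; have := hm'.2
      omega
    · rw [if_neg h, if_neg h'] at he
      exact dec_inj h0 h0' (by omega) (by omega) he
  have hfin : (VTf n).Finite := (VT_finite (n + 1)).subset fun _ h => h.1
  have h1 : (VTf n).ncard ≤ (VT n).ncard :=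
    Set.ncard_le_ncard_of_injOn shr hmaps hinj (VT_finite n)
  calc (VT (n + 1)).ncard ≤ (VT n ∪ VTf n).ncard :=
        Set.ncard_le_ncard hsub ((VT_finite n).union hfin)
    _ ≤ (VT n).ncard + (VTf n).ncard := Set.ncard_union_le _ _
    _ ≤ 2 * (VT n).ncard := by omega

theorem VT_five : (VT 5).ncard ≤ 8 := by
  have hsub : VT 5 ⊆ ((({0, {2}, {3}, {4}, {5}, {2, 2}, {2, 3}} : Finset (Multiset ℕ))) :
      Set (Multiset ℕ)) := by
    intro m hm
    have hc : Multiset.card m * 2 ≤ m.sum := by
      have := Multiset.card_nsmul_le_sum hm.2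
      simpa [mul_comm] using this
    have h5 := hm.1
    have hc2 : Multiset.card m ≤ 2 := by omega
    simp only [Finset.coe_insert, Finset.coe_singleton, Set.mem_insert_iff,
      Set.mem_singleton_iff]
    interval_cases hcard : Multiset.card m
    · rw [Multiset.card_eq_zero] at hcard; subst hcard; simp
    · obtain ⟨a, rfl⟩ := Multiset.card_eq_one.mp hcard
      have h2 := hm.2 a (by simp)
      simp at h5
      interval_cases a <;> simp
    · obtain ⟨a, b, rfl⟩ := Multiset.card_eq_two.mp hcard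
      have h2 := hm.2 a (by simp)
      have h3 := hm.2 b (by simp)
      simp at h5
      have ha : a ≤ 3 := by omega
      have hb : b ≤ 3 := by omega
      interval_cases a <;> interval_cases b <;> first
        | (simp_all; done)
        | (right; right; right; right; right; right; exact Multiset.pair_comm 3 2)
  calc (VT 5).ncard ≤ _ := Set.ncard_le_ncard hsub (Finset.finite_toSet _)
    _ = _ := Set.ncard_coe_finset _
    _ ≤ 8 := by
      refine (Finset.card_insert_le _ _).trans ?_
      have := Finset.card_le_six (a := ({2} : Multiset ℕ)) (b := {3}) (c := {4}) (d := {5})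
        (e := {2, 2}) (f := {2, 3})
      omega

/-- the alternating group -/
abbrev An (n : ℕ) := alternatingGroup (Fin n)

/-- cycle type of a class of `A_n` -/
def ctA (n : ℕ) : ConjClasses (An n) → Multiset ℕ :=
  Quotient.lift (fun g : An n => (g : Perm (Fin n)).cycleType) (by
    intro a b (h : IsConj a b)
    obtain ⟨c, hc⟩ := isConj_iff.mp h
    apply Equiv.Perm.isConj_iff_cycleType_eq.mp
    exact isConj_iff.mpr ⟨(c : Perm (Fin n)), by rw [← hc]; rfl⟩)

theorem sign_of_not_mem {n : ℕ} {σ : Perm (Fin n)} (h : σ ∉ An n) : Perm.sign σ = -1 := by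
  rcases Int.units_eq_one_or (Perm.sign σ) with h1 | h1
  · exact absurd (Equiv.Perm.mem_alternatingGroup.mpr h1) h
  · exact h1

theorem odd_mul_odd {n : ℕ} {σ τ : Perm (Fin n)} (h : σ ∉ An n) (h' : τ ∉ An n) :
    σ * τ ∈ An n := by
  rw [Equiv.Perm.mem_alternatingGroup, map_mul, sign_of_not_mem h, sign_of_not_mem h']
  simp

theorem odd_inv {n : ℕ} {σ : Perm (Fin n)} (h : σ ∉ An n) : σ⁻¹ ∉ An n :=
  fun h' => h (by simpa using inv_mem h')

theorem conj_or_odd {n : ℕ} (g r : An n)
    (h : (g : Perm (Fin n)).cycleType = (r : Perm (Fin n)).cycleType) :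
    ConjClasses.mk g = ConjClasses.mk r ∨
      ∃ σ : Perm (Fin n), σ ∉ An n ∧ σ * (r : Perm (Fin n)) * σ⁻¹ = g := by
  obtain ⟨σ, hσ⟩ := isConj_iff.mp (Equiv.Perm.isConj_iff_cycleType_eq.mpr h.symm)
  by_cases hs : σ ∈ An n
  · left
    exact (ConjClasses.mk_eq_mk_iff_isConj.mpr
      (isConj_iff.mpr ⟨⟨σ, hs⟩, Subtype.ext hσ⟩)).symm
  · exact Or.inr ⟨σ, hs, hσ⟩

theorem ctA_mk (n : ℕ) (g : An n) :
    ctA n (ConjClasses.mk g) = (g : Perm (Fin n)).cycleType := rfl

theorem card_conj_alt_le (n : ℕ) :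
    Nat.card (ConjClasses (An n)) ≤ (VTe n).ncard + (VTs n).ncard := by
  classical
  have hrep : ∀ m ∈ VTe n, ∃ r : An n, (r : Perm (Fin n)).cycleType = m := by
    intro m hm
    obtain ⟨g, hg⟩ := (Equiv.Perm.exists_with_cycleType_iff (Fin n)).mpr
      ⟨by simpa using hm.1.1, hm.1.2⟩
    refine ⟨⟨g, ?_⟩, hg⟩
    rw [Equiv.Perm.mem_alternatingGroup, Equiv.Perm.sign_of_cycleType, hg]
    exact Even.neg_one_pow hm.2
  choose! r hr using hrep
  have hE : ∀ g : An n, (g : Perm (Fin n)).cycleType ∈ VTe n := by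
    intro g
    refine ⟨⟨by simpa using (g : Perm (Fin n)).sum_cycleType_le,
      fun a ha => two_le_of_mem_cycleType ha⟩, ?_⟩
    have h1 := Equiv.Perm.mem_alternatingGroup.mp g.2
    rw [Equiv.Perm.sign_of_cycleType] at h1
    by_contra h2
    rw [Nat.not_even_iff_odd] at h2
    rw [Odd.neg_one_pow h2] at h1
    exact absurd h1 (by decide)
  let φ : ConjClasses (An n) → Multiset ℕ × Prop :=
    fun c => (ctA n c, c = ConjClasses.mk (r (ctA n c)))
  have hφmk : ∀ g : An n, φ (ConjClasses.mk g) = ((g : Perm (Fin n)).cycleType,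
      ConjClasses.mk g = ConjClasses.mk (r (g : Perm (Fin n)).cycleType)) := by
    intro g
    show (ctA n (ConjClasses.mk g), ConjClasses.mk g = ConjClasses.mk (r (ctA n (ConjClasses.mk g)))) = _
    rw [ctA_mk]
  have hφ : Function.Injective φ := by
    intro c c' h
    obtain ⟨g, rfl⟩ := ConjClasses.exists_rep c
    obtain ⟨g', rfl⟩ := ConjClasses.exists_rep c'
    rw [hφmk, hφmk] at h
    have e1 : (g : Perm (Fin n)).cycleType = (g' : Perm (Fin n)).cycleType :=
      (Prod.mk.inj h).1
    have e2' := (Prod.mk.inj h).2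
    rw [← e1] at e2'
    have hρt0 : ((r (g : Perm (Fin n)).cycleType : An n) : Perm (Fin n)).cycleType =
        (g : Perm (Fin n)).cycleType := hr _ (hE g)
    generalize r (g : Perm (Fin n)).cycleType = ρ at e2' hρt0
    have e2 : (ConjClasses.mk g = ConjClasses.mk ρ) ↔ (ConjClasses.mk g' = ConjClasses.mk ρ) :=
      Eq.to_iff e2'
    rcases conj_or_odd g ρ hρt0.symm with h1 | ⟨σ, hσ, hσg⟩
    · exact h1.trans (e2.mp h1).symm
    · rcases conj_or_odd g' ρ (e1.symm.trans hρt0.symm) with h1' | ⟨σ', hσ', hσg'⟩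
      · exact (e2.mpr h1').trans h1'.symm
      · apply ConjClasses.mk_eq_mk_iff_isConj.mpr
        refine isConj_iff.mpr ⟨⟨σ' * σ⁻¹, odd_mul_odd hσ' (odd_inv hσ)⟩, Subtype.ext ?_⟩
        show σ' * σ⁻¹ * (g : Perm (Fin n)) * (σ' * σ⁻¹)⁻¹ = g'
        rw [← hσg, ← hσg']; group
  let W : Set (Multiset ℕ × Prop) :=
    (fun m => (m, True)) '' VTe n ∪ (fun m => (m, False)) '' VTs n
  have hW : W.Finite := ((VTe_finite n).image _).union ((VTs_finite n).image _)
  have hsub : Set.range φ ⊆ W := by
    rintro _ ⟨c, rfl⟩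
    obtain ⟨g, rfl⟩ := ConjClasses.exists_rep c
    rw [hφmk]
    have hρt0 : ((r (g : Perm (Fin n)).cycleType : An n) : Perm (Fin n)).cycleType =
        (g : Perm (Fin n)).cycleType := hr _ (hE g)
    generalize r (g : Perm (Fin n)).cycleType = ρ at hρt0 ⊢
    by_cases hc : ConjClasses.mk g = ConjClasses.mk ρ
    · left
      refine ⟨(g : Perm (Fin n)).cycleType, hE g, ?_⟩
      exact Prod.ext rfl (eq_true hc).symm
    · right
      refine ⟨(g : Perm (Fin n)).cycleType, ?_, ?_⟩
      · refine ⟨(hE g).1, ?_⟩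
        have hcent : Subgroup.centralizer {(ρ : Perm (Fin n))} ≤
            alternatingGroup (Fin n) := by
          by_contra hnot
          obtain ⟨κ, hκ, hκA⟩ := SetLike.not_le_iff_exists.mp hnot
          rcases conj_or_odd g ρ hρt0.symm with h1 | ⟨σ, hσ, hσg⟩
          · exact hc h1
          · apply hc
            apply ConjClasses.mk_eq_mk_iff_isConj.mpr
            refine (isConj_iff.mpr ⟨⟨σ * κ, odd_mul_odd hσ hκA⟩, Subtype.ext ?_⟩).symm
            show σ * κ * (ρ : Perm (Fin n)) * (σ * κ)⁻¹ = g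
            have hk := Subgroup.mem_centralizer_singleton_iff.mp hκ
            rw [← hσg, mul_inv_rev, mul_assoc σ κ, hk]; group
        have h3 := Equiv.Perm.centralizer_le_alternating_iff.mp hcent
        rw [hρt0] at h3
        exact ⟨h3.1, by simpa using h3.2.1, h3.2.2⟩
      · exact Prod.ext rfl (eq_false hc).symm
  calc Nat.card (ConjClasses (An n)) = (Set.range φ).ncard := by
        rw [Nat.card_congr (Equiv.ofInjective φ hφ), Nat.card_coe_set_eq]
    _ ≤ W.ncard := Set.ncard_le_ncard hsub hW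
    _ ≤ _ := (Set.ncard_union_le _ _).trans
        (add_le_add (Set.ncard_image_le (VTe_finite n)) (Set.ncard_image_le (VTs_finite n)))

theorem main (n : ℕ) (hn : 5 ≤ n) :
    Nat.card (ConjClasses (alternatingGroup (Fin n))) < Nat.card (ConjClasses (Perm (Fin n))) ∧
      Nat.card (ConjClasses (Perm (Fin n))) ≤ 2 ^ (n - 2) := by
  constructor
  · rw [card_conj_perm, VT_split]
    have h1 : Nat.card (ConjClasses (alternatingGroup (Fin n))) ≤
        (VTe n).ncard + (VTs n).ncard := card_conj_alt_le n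
    have h2 := VTs_lt_VTo n hn
    omega
  · rw [card_conj_perm]
    induction n, hn using Nat.le_induction with
    | base => exact VT_five
    | succ k hk ih =>
      have h := VT_succ_le k
      have e : 2 ^ (k + 1 - 2) = 2 * 2 ^ (k - 2) := by
        rw [show k + 1 - 2 = (k - 2) + 1 by omega, pow_succ]; ring
      omega

end Cfsg.Agent.Helper17.CycTypes
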