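import Mathlib

set_option autoImplicit false

namespace Cfsg.Agent.Helper17.MonoT

theorem z2a : ∀ a : ZMod 2, a ≠ 0 → a = 1 := by decide
theorem z2s : ∀ s : ZMod 2, (s = 1 ∨ s = -1) → s = 1 := by decide
theorem z3a : ∀ a : ZMod 3, a ≠ 0 → a = 1 ∨ a = -1 := by decide
theorem z3sq : ∀ a : ZMod 3, a ≠ 0 → a * a = 1 := by decide
theorem z3ne : (-1 : ZMod 3) ≠ 1 := by decide
theorem z3m1 : (-1 : ZMod 3) ≠ 0 := by decide

variable {q : ℕ} [Fact q.Prime]

/-- the ambient group of linear automorphisms of the plane over `ZMod q` -/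
abbrev LE (q : ℕ) [Fact q.Prime] := (Fin 2 → ZMod q) ≃ₗ[ZMod q] (Fin 2 → ZMod q)

theorem vec2_eq {α : Type*} {x y x' y' : α} (h1 : x = x') (h2 : y = y') :
    (![x, y] : Fin 2 → α) = ![x', y'] := by rw [h1, h2]

theorem vec2_inj {α : Type*} {x y x' y' : α} (h : (![x, y] : Fin 2 → α) = ![x', y']) :
    x = x' ∧ y = y' :=
  ⟨by simpa using congrFun h 0, by simpa using congrFun h 1⟩

/-- diagonal form -/
def IsD (f : LE q) (a s : ZMod q) : Prop := ∀ v, f v = ![a * v 0, s * a⁻¹ * v 1]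

/-- antidiagonal form -/
def IsM (f : LE q) (a s : ZMod q) : Prop := ∀ v, f v = ![s * a⁻¹ * v 1, a * v 0]

theorem isD_apply {f : LE q} {a s : ZMod q} (h : IsD f a s) (x y : ZMod q) :
    f ![x, y] = ![a * x, s * a⁻¹ * y] := h _

theorem isM_apply {f : LE q} {a s : ZMod q} (h : IsM f a s) (x y : ZMod q) :
    f ![x, y] = ![s * a⁻¹ * y, a * x] := h _

theorem isD_ext {f g : LE q} {a s : ZMod q} (hf : IsD f a s) (hg : IsD g a s) : f = g :=
  LinearEquiv.ext fun v => by rw [hf v, hg v]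

theorem isM_ext {f g : LE q} {a s : ZMod q} (hf : IsM f a s) (hg : IsM g a s) : f = g :=
  LinearEquiv.ext fun v => by rw [hf v, hg v]

theorem isD_congr {f : LE q} {a s a' s' : ZMod q} (h : IsD f a s) (ha : a = a') (hs : s = s') :
    IsD f a' s' := by
  subst ha; subst hs; exact h

theorem isM_congr {f : LE q} {a s a' s' : ZMod q} (h : IsM f a s) (ha : a = a') (hs : s = s') :
    IsM f a' s' := by
  subst ha; subst hs; exact h

theorem isD_one : IsD (1 : LE q) 1 1 := by
  intro v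
  ext i
  fin_cases i <;> simp

theorem isD_param {f : LE q} {a s b t : ZMod q} (h : IsD f a s) (h' : IsD f b t) : a = b := by
  have e := (isD_apply h 1 0).symm.trans (isD_apply h' 1 0)
  have := (vec2_inj e).1
  simpa using this

theorem isD_param_s {f : LE q} {a s t : ZMod q} (ha : a ≠ 0) (h : IsD f a s) (h' : IsD f a t) :
    s = t := by
  have e := (isD_apply h 0 1).symm.trans (isD_apply h' 0 1)
  have h1 := (vec2_inj e).2
  have h2 : s * a⁻¹ = t * a⁻¹ := by rw [mul_one, mul_one] at h1; exact h1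
  exact mul_right_cancel₀ (inv_ne_zero ha) h2

theorem isD_isM_false {f : LE q} {a s b t : ZMod q} (h : IsD f b t) (h' : IsM f a s) : a = 0 := by
  have e := (isD_apply h 1 0).symm.trans (isM_apply h' 1 0)
  have h1 := (vec2_inj e).2
  rw [mul_zero, mul_one] at h1
  exact h1.symm

theorem isD_mul {f g : LE q} {a s b t : ZMod q} (hf : IsD f a s) (hg : IsD g b t) :
    IsD (f * g) (a * b) (s * t) := by
  intro v
  rw [LinearEquiv.mul_apply, hg v, isD_apply hf]
  apply vec2_eq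
  · ring
  · rw [mul_inv]; ring

theorem isM_mul_isD {f g : LE q} {a s b t : ZMod q} (hf : IsM f a s) (hg : IsD g b t) :
    IsM (f * g) (a * b) (s * t) := by
  intro v
  rw [LinearEquiv.mul_apply, hg v, isM_apply hf]
  apply vec2_eq
  · rw [mul_inv]; ring
  · ring

theorem isD_mul_isM {f g : LE q} {a s b t : ZMod q} (hs : s ≠ 0) (hf : IsD f a s)
    (hg : IsM g b t) : IsM (f * g) (s * a⁻¹ * b) (s * t) := by
  intro v
  rw [LinearEquiv.mul_apply, hg v, isD_apply hf]
  have hss : s * s⁻¹ = 1 := mul_inv_cancel₀ hs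
  apply vec2_eq
  · rw [mul_inv, mul_inv, inv_inv]
    linear_combination (-(t * a * b⁻¹ * v 1)) * hss
  · ring

theorem isM_mul_isM {f g : LE q} {a s b t : ZMod q} (hs : s ≠ 0) (hf : IsM f a s)
    (hg : IsM g b t) : IsD (f * g) (s * a⁻¹ * b) (s * t) := by
  intro v
  rw [LinearEquiv.mul_apply, hg v, isM_apply hf]
  have hss : s * s⁻¹ = 1 := mul_inv_cancel₀ hs
  apply vec2_eq
  · ring
  · rw [mul_inv, mul_inv, inv_inv]
    linear_combination (-(t * a * b⁻¹ * v 1)) * hss

/-- a diagonal linear automorphism -/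
noncomputable def dgE (a b : ZMod q) (ha : a ≠ 0) (hb : b ≠ 0) : LE q where
  toFun v := ![a * v 0, b * v 1]
  map_add' v w := by
    ext i; fin_cases i <;> simp [mul_add]
  map_smul' c v := by
    ext i; fin_cases i <;> simp [mul_left_comm]
  invFun v := ![a⁻¹ * v 0, b⁻¹ * v 1]
  left_inv v := by
    ext i; fin_cases i <;> simp [ha, hb]
  right_inv v := by
    ext i; fin_cases i <;> simp [ha, hb]

/-- an antidiagonal linear automorphism -/
noncomputable def adE (a b : ZMod q) (ha : a ≠ 0) (hb : b ≠ 0) : LE q where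
  toFun v := ![b * v 1, a * v 0]
  map_add' v w := by
    ext i; fin_cases i <;> simp [mul_add]
  map_smul' c v := by
    ext i; fin_cases i <;> simp [mul_left_comm]
  invFun v := ![a⁻¹ * v 1, b⁻¹ * v 0]
  left_inv v := by
    ext i; fin_cases i <;> simp [ha, hb]
  right_inv v := by
    ext i; fin_cases i <;> simp [ha, hb]

theorem exD (T : Subgroup (LE q))
    (hT : ∀ f, f ∈ T ↔ ∃ a s : ZMod q, a ≠ 0 ∧ (s = 1 ∨ s = -1) ∧ (IsD f a s ∨ IsM f a s))
    {a s : ZMod q} (ha : a ≠ 0) (hs : s = 1 ∨ s = -1) : ∃ t : T, IsD (t : LE q) a s := by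
  have hs0 : s ≠ 0 := by rcases hs with rfl | rfl <;> simp
  exact ⟨⟨dgE a (s * a⁻¹) ha (mul_ne_zero hs0 (inv_ne_zero ha)),
    (hT _).2 ⟨a, s, ha, hs, Or.inl fun v => rfl⟩⟩, fun v => rfl⟩

theorem exM (T : Subgroup (LE q))
    (hT : ∀ f, f ∈ T ↔ ∃ a s : ZMod q, a ≠ 0 ∧ (s = 1 ∨ s = -1) ∧ (IsD f a s ∨ IsM f a s))
    {a s : ZMod q} (ha : a ≠ 0) (hs : s = 1 ∨ s = -1) : ∃ t : T, IsM (t : LE q) a s := by
  have hs0 : s ≠ 0 := by rcases hs with rfl | rfl <;> simp
  exact ⟨⟨adE a (s * a⁻¹) ha (mul_ne_zero hs0 (inv_ne_zero ha)),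
    (hT _).2 ⟨a, s, ha, hs, Or.inr fun v => rfl⟩⟩, fun v => rfl⟩

theorem fix_of_mul {G : Type*} [Group G] (ψ : MulAut G) (o : ℕ) (ho : Odd o) (hψ : ψ ^ o = 1)
    (x n : G) (hn : ψ n = n) (k : ℕ) (hnk : n ^ (2 ^ k) = 1) (hx : ψ x = x * n) : n = 1 := by
  have h1 : ∀ j : ℕ, (ψ ^ j) x = x * n ^ j := by
    intro j
    induction j with
    | zero => simp
    | succ j ih =>
      rw [pow_succ', MulAut.mul_apply, ih, map_mul, map_pow, hx, hn, mul_assoc, ← pow_succ']
  have h2 := h1 o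
  rw [hψ, MulAut.one_apply] at h2
  have h3 : n ^ o = 1 := by
    have := h2.symm
    simpa using this
  have h4 : orderOf n ∣ o := orderOf_dvd_of_pow_eq_one h3
  have h5 : orderOf n ∣ 2 ^ k := orderOf_dvd_of_pow_eq_one hnk
  have h6 : Nat.Coprime o (2 ^ k) := Nat.Coprime.pow_right k (Nat.coprime_two_right.mpr ho)
  have h7 : orderOf n = 1 := (h6.coprime_dvd_left h4).eq_one_of_dvd h5
  exact orderOf_eq_one_iff.mp h7


theorem small2 (hq : q = 2) (T : Subgroup (LE q))
    (hT : ∀ f, f ∈ T ↔ ∃ a s : ZMod q, a ≠ 0 ∧ (s = 1 ∨ s = -1) ∧ (IsD f a s ∨ IsM f a s))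
    (ψ : MulAut T) : ψ = 1 := by
  subst hq
  have h2a : ∀ a : ZMod 2, a ≠ 0 → a = 1 := z2a
  have h2s : ∀ s : ZMod 2, (s = 1 ∨ s = -1) → s = 1 := z2s
  have hform : ∀ t : T, IsD (t : LE 2) 1 1 ∨ IsM (t : LE 2) 1 1 := by
    intro t
    obtain ⟨a, s, ha, hs, h⟩ := (hT t.1).1 t.2
    have h1 := h2a a ha
    subst h1
    have h2 := h2s s hs
    subst h2
    exact h
  apply MulEquiv.ext
  intro t
  show ψ t = t
  rcases hform t with h | h
  · have : t = 1 := Subtype.ext (isD_ext h isD_one)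
    rw [this, map_one]
  · rcases hform (ψ t) with h' | h'
    · have h1 : ψ t = 1 := Subtype.ext (isD_ext h' isD_one)
      have h2 : t = 1 := ψ.injective (h1.trans (map_one ψ).symm)
      rw [h2, map_one]
    · exact Subtype.ext (isM_ext h' h)

theorem small3 (hq : q = 3) (T : Subgroup (LE q))
    (hT : ∀ f, f ∈ T ↔ ∃ a s : ZMod q, a ≠ 0 ∧ (s = 1 ∨ s = -1) ∧ (IsD f a s ∨ IsM f a s))
    (ψ : MulAut T) (o : ℕ) (ho : Odd o) (hψ : ψ ^ o = 1) : ψ = 1 := by
  subst hq
  have h3a : ∀ a : ZMod 3, a ≠ 0 → a = 1 ∨ a = -1 := z3a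
  have h3sq : ∀ a : ZMod 3, a ≠ 0 → a * a = 1 := z3sq
  have hne : (-1 : ZMod 3) ≠ 1 := z3ne
  have hm1 : (-1 : ZMod 3) ≠ 0 := z3m1
  have hform : ∀ t : T, ∃ a s : ZMod 3, a ≠ 0 ∧ (s = 1 ∨ s = -1) ∧
      (IsD (t : LE 3) a s ∨ IsM (t : LE 3) a s) :=
    fun t => (hT t.1).1 t.2
  have hs0 : ∀ s : ZMod 3, (s = 1 ∨ s = -1) → s ≠ 0 ∧ s * s = 1 := by
    rintro s (rfl | rfl)
    exacts [⟨one_ne_zero, mul_one 1⟩, ⟨hm1, by ring⟩]
  have hDone : ∀ t : T, IsD (t : LE 3) 1 1 → t = 1 := fun t h => Subtype.ext (isD_ext h isD_one)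
  obtain ⟨ym, hym⟩ := exD T hT hm1 (Or.inl rfl)
  obtain ⟨r, hr⟩ := exM T hT (one_ne_zero) (Or.inr rfl)
  have hymym : ym * ym = 1 :=
    hDone _ (isD_congr (isD_mul hym hym) (by ring) (by ring))
  have hsqform : ∀ t : T, t * t = 1 ∨ t * t = ym := by
    intro t
    obtain ⟨a, s, ha, hs, h | h⟩ := hform t
    · left
      exact hDone _ (isD_congr (isD_mul h h) (h3sq a ha) (hs0 s hs).2)
    · have h2 : IsD ((t * t : T) : LE 3) s 1 :=
        isD_congr (isM_mul_isM (hs0 s hs).1 h h)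
          (by rw [mul_assoc, inv_mul_cancel₀ ha, mul_one]) (hs0 s hs).2
      rcases hs with rfl | rfl
      · left; exact hDone _ h2
      · right; exact Subtype.ext (isD_ext h2 hym)
  have hrr : r * r = ym := by
    have h2 : IsD ((r * r : T) : LE 3) (-1) 1 :=
      isD_congr (isM_mul_isM hm1 hr hr) (by simp) (by ring)
    exact Subtype.ext (isD_ext h2 hym)
  have hym1 : ym ≠ 1 := by
    intro h
    rw [h] at hym
    exact hne (isD_param hym isD_one)
  have hymfix : ψ ym = ym := by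
    rcases hsqform (ψ r) with h | h
    · exfalso
      rw [← map_mul, hrr] at h
      exact hym1 (ψ.injective (h.trans (map_one ψ).symm))
    · rw [← map_mul, hrr] at h; exact h
  have hry : IsM ((r * ym : T) : LE 3) (-1) (-1) :=
    isM_congr (isM_mul_isD hr hym) (by ring) (by ring)
  have hrfix : ψ r = r := by
    have hsq : ψ r * ψ r = ym := by rw [← map_mul, hrr, hymfix]
    obtain ⟨b, s', hb, hs', h | h⟩ := hform (ψ r)
    · exfalso
      have : ψ r * ψ r = 1 := hDone _ (isD_congr (isD_mul h h) (h3sq b hb) (hs0 s' hs').2)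
      exact hym1 (hsq.symm.trans this)
    · have h2 : IsD ((ψ r * ψ r : T) : LE 3) s' 1 :=
        isD_congr (isM_mul_isM (hs0 s' hs').1 h h)
          (by rw [mul_assoc, inv_mul_cancel₀ hb, mul_one]) (hs0 s' hs').2
      rw [hsq] at h2
      have hs1 : s' = -1 := isD_param h2 hym
      subst hs1
      rcases h3a b hb with rfl | rfl
      · exact Subtype.ext (isM_ext h hr)
      · have hx : ψ r = r * ym := Subtype.ext (isM_ext h hry)
        have := fix_of_mul ψ o ho hψ r ym hymfix 1 (by rw [pow_one, pow_two]; exact hymym) hx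
        rw [hx, this, mul_one]
  have hΦ : ∀ t : T, ∀ a : ZMod 3, a ≠ 0 →
      (IsD (t : LE 3) a 1 ∨ IsM (t : LE 3) a (-1)) → ψ t = t := by
    intro t a ha h
    rcases h3a a ha with rfl | rfl
    · rcases h with h | h
      · rw [hDone t h, map_one]
      · rw [show t = r from Subtype.ext (isM_ext h hr)]; exact hrfix
    · rcases h with h | h
      · rw [show t = ym from Subtype.ext (isD_ext h hym)]; exact hymfix
      · rw [show t = r * ym from Subtype.ext (isM_ext h hry), map_mul, hrfix, hymfix]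
  have hpow4 : ∀ n : T, n ^ (2 ^ 2) = 1 := by
    intro n
    have : n ^ (2 ^ 2) = (n * n) * (n * n) := by
      rw [show (2:ℕ) ^ 2 = 2 + 2 by norm_num, pow_add, pow_two]
    rw [this]
    rcases hsqform n with h | h
    · rw [h, mul_one]
    · rw [h, hymym]
  apply MulEquiv.ext
  intro t
  show ψ t = t
  obtain ⟨a, s, ha, hs, ht⟩ := hform t
  obtain ⟨b, s', hb, hs', ht'⟩ := hform (ψ t)
  have fin : ∀ n : T, ψ n = n → ψ t = t * n → ψ t = t := by
    intro n hn hx
    have := fix_of_mul ψ o ho hψ t n hn 2 (hpow4 n) hx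
    rw [hx, this, mul_one]
  have back : ψ (ψ t) = ψ t → ψ t = t := fun h => ψ.injective h
  rcases hs with rfl | rfl
  · rcases ht with ht | ht
    · exact hΦ t a ha (Or.inl ht)
    · rcases hs' with rfl | rfl
      · rcases ht' with ht' | ht'
        · exact back (hΦ _ b hb (Or.inl ht'))
        · obtain ⟨n, hn⟩ := exD T hT (mul_ne_zero hb (inv_ne_zero ha)) (Or.inl rfl)
          refine fin n (hΦ n _ (mul_ne_zero hb (inv_ne_zero ha)) (Or.inl hn))
            (Subtype.ext (isM_ext ht' (isM_congr (isM_mul_isD ht hn) ?_ (mul_one 1))))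
          rw [mul_left_comm, mul_inv_cancel₀ ha, mul_one]
      · rcases ht' with ht' | ht'
        · obtain ⟨n, hn⟩ := exM T hT (mul_ne_zero ha hb) (Or.inr rfl)
          refine fin n (hΦ n _ (mul_ne_zero ha hb) (Or.inr hn))
            (Subtype.ext (isD_ext ht' (isD_congr (isM_mul_isM one_ne_zero ht hn) ?_ (one_mul _))))
          rw [one_mul, ← mul_assoc, inv_mul_cancel₀ ha, one_mul]
        · exact back (hΦ _ b hb (Or.inr ht'))
  · rcases ht with ht | ht
    · rcases hs' with rfl | rfl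
      · rcases ht' with ht' | ht'
        · exact back (hΦ _ b hb (Or.inl ht'))
        · obtain ⟨n, hn⟩ := exM T hT (neg_ne_zero.mpr (mul_ne_zero ha hb)) (Or.inr rfl)
          refine fin n (hΦ n _ (neg_ne_zero.mpr (mul_ne_zero ha hb)) (Or.inr hn))
            (Subtype.ext (isM_ext ht' (isM_congr (isD_mul_isM hm1 ht hn) ?_ (by ring))))
          rw [neg_one_mul, neg_mul_neg, ← mul_assoc, inv_mul_cancel₀ ha, one_mul]
      · rcases ht' with ht' | ht'
        · obtain ⟨n, hn⟩ := exD T hT (mul_ne_zero hb (inv_ne_zero ha)) (Or.inl rfl)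
          refine fin n (hΦ n _ (mul_ne_zero hb (inv_ne_zero ha)) (Or.inl hn))
            (Subtype.ext (isD_ext ht' (isD_congr (isD_mul ht hn) ?_ (mul_one _))))
          rw [mul_left_comm, mul_inv_cancel₀ ha, mul_one]
        · exact back (hΦ _ b hb (Or.inr ht'))
    · exact hΦ t a ha (Or.inr ht)


theorem big (m : ℕ) (hq : q = 2 ^ (m + 3) + 1) (T : Subgroup (LE q))
    (hT : ∀ f, f ∈ T ↔ ∃ a s : ZMod q, a ≠ 0 ∧ (s = 1 ∨ s = -1) ∧ (IsD f a s ∨ IsM f a s))
    (ψ : MulAut T) (o : ℕ) (ho : Odd o) (hψ : ψ ^ o = 1) : ψ = 1 := by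
  have hpw : 2 ^ (m + 3) = 8 * 2 ^ m := by rw [pow_add]; ring
  have hq2 : 2 < q := by
    have : 0 < 2 ^ m := Nat.two_pow_pos m
    omega
  haveI : Fact (2 < q) := ⟨hq2⟩
  have hne : (-1 : ZMod q) ≠ 1 := ZMod.neg_one_ne_one
  have hm1 : (-1 : ZMod q) ≠ 0 := by simp
  have hq1 : q - 1 = 2 ^ (m + 3) := by omega
  have hferm : ∀ c : ZMod q, c ≠ 0 → c ^ (2 ^ (m + 3)) = 1 := by
    intro c hc
    have := ZMod.pow_card_sub_one_eq_one hc
    rwa [hq1] at this
  obtain ⟨c, hc0, hc4⟩ : ∃ c : ZMod q, c ≠ 0 ∧ c ^ 4 = -1 := by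
    have hchar : ringChar (ZMod q) ≠ 2 := by
      rw [ZMod.ringChar_zmod_n]; omega
    obtain ⟨x, hx⟩ := FiniteField.exists_nonsquare hchar
    have hx0 : x ≠ 0 := by
      rintro rfl; exact hx ⟨0, by simp⟩
    have h1 := ZMod.pow_div_two_eq_neg_one_or_one q hx0
    have h2 := (ZMod.euler_criterion q hx0).not.mp hx
    have hdiv : q / 2 = 2 ^ m * 4 := by omega
    rw [hdiv] at h1 h2
    refine ⟨x ^ (2 ^ m), pow_ne_zero _ hx0, ?_⟩
    rw [← pow_mul]
    rcases h1 with h1 | h1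
    · exact absurd h1 h2
    · exact h1
  set i : ZMod q := c * c with hi
  have hi0 : i ≠ 0 := mul_ne_zero hc0 hc0
  have hii : i * i = -1 := by rw [← hc4, hi]; ring
  have hisq : IsSquare i := ⟨c, rfl⟩
  have hm1sq : IsSquare (-1 : ZMod q) := ⟨i, hii.symm⟩
  have hform : ∀ t : T, ∃ a s : ZMod q, a ≠ 0 ∧ (s = 1 ∨ s = -1) ∧
      (IsD (t : LE q) a s ∨ IsM (t : LE q) a s) :=
    fun t => (hT t.1).1 t.2
  have hs0 : ∀ s : ZMod q, (s = 1 ∨ s = -1) → s ≠ 0 ∧ s * s = 1 := by
    rintro s (rfl | rfl)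
    exacts [⟨one_ne_zero, mul_one 1⟩, ⟨hm1, by ring⟩]
  have hDone : ∀ t : T, IsD (t : LE q) 1 1 → t = 1 := fun t h => Subtype.ext (isD_ext h isD_one)
  have hsqform : ∀ t : T, ∃ b : ZMod q, b ≠ 0 ∧ IsSquare b ∧ IsD ((t * t : T) : LE q) b 1 := by
    intro t
    obtain ⟨a, s, ha, hs, h | h⟩ := hform t
    · exact ⟨a * a, mul_ne_zero ha ha, ⟨a, rfl⟩, isD_congr (isD_mul h h) rfl (hs0 s hs).2⟩
    · refine ⟨s, (hs0 s hs).1, ?_, isD_congr (isM_mul_isM (hs0 s hs).1 h h) ?_ (hs0 s hs).2⟩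
      · rcases hs with rfl | rfl
        · exact ⟨1, by simp⟩
        · exact hm1sq
      · rw [mul_assoc, inv_mul_cancel₀ ha, mul_one]
  have hpow : ∀ (t : T) (a : ZMod q), IsD (t : LE q) a 1 →
      ∀ k : ℕ, IsD ((t ^ k : T) : LE q) (a ^ k) 1 := by
    intro t a h k
    induction k with
    | zero =>
      have : (t ^ 0 : T) = 1 := pow_zero t
      rw [this, pow_zero]
      exact isD_one
    | succ k ih =>
      have : t ^ (k + 1) = t ^ k * t := pow_succ t k
      rw [this]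
      exact isD_congr (isD_mul ih h) (pow_succ a k).symm (mul_one 1)
  have hsq : ∀ e : ℕ, ∀ a : ZMod q, a ≠ 0 → IsSquare a → a ^ (2 ^ e) = 1 →
      ∀ t : T, IsD (t : LE q) a 1 → ψ t = t := by
    intro e
    induction e with
    | zero =>
      intro a ha hasq hae t ht
      have ha1 : a = 1 := by simpa using hae
      subst ha1
      rw [hDone t ht, map_one]
    | succ e ih =>
      intro a ha hasq hae t ht
      have hb0 : a ^ (2 ^ e) * a ^ (2 ^ e) = 1 := by
        rw [← pow_add, ← two_mul, ← pow_succ']; exact hae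
      rcases mul_self_eq_one_iff.mp hb0 with h1 | h1
      · exact ih a ha hasq h1 t ht
      · have hasq' := hasq
        obtain ⟨c0, hc0e⟩ := hasq
        have hc00 : c0 ≠ 0 := by
          rintro rfl
          rw [mul_zero] at hc0e
          exact ha hc0e
        obtain ⟨tc, htc⟩ := exD T hT hc00 (Or.inl rfl)
        have htt : t = tc * tc :=
          Subtype.ext (isD_ext ht (isD_congr (isD_mul htc htc) hc0e.symm (mul_one 1)))
        obtain ⟨b, hb0', hbsq, hb⟩ := hsqform (ψ tc)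
        have hψt : IsD ((ψ t : T) : LE q) b 1 := by rw [htt, map_mul]; exact hb
        have ht1 : t ^ (2 ^ (e + 1)) = 1 := hDone _ (isD_congr (hpow t a ht _) hae rfl)
        have hb1 : b ^ (2 ^ (e + 1)) = 1 := by
          have h2 := hpow (ψ t) b hψt (2 ^ (e + 1))
          rw [← map_pow, ht1, map_one] at h2
          exact isD_param h2 isD_one
        have hb2 : b ^ (2 ^ e) * b ^ (2 ^ e) = 1 := by
          rw [← pow_add, ← two_mul, ← pow_succ']; exact hb1
        have hb3 : b ^ (2 ^ e) = -1 := by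
          rcases mul_self_eq_one_iff.mp hb2 with h3 | h3
          · exfalso
            have h4 := hpow (ψ t) b hψt (2 ^ e)
            rw [h3, ← map_pow] at h4
            have h5 : ψ (t ^ (2 ^ e)) = 1 := hDone _ h4
            have h6 : t ^ (2 ^ e) = 1 := ψ.injective (h5.trans (map_one ψ).symm)
            have h7 := hpow t a ht (2 ^ e)
            rw [h6, h1] at h7
            exact hne (isD_param h7 isD_one)
          · exact h3
        have hba : b * a⁻¹ ≠ 0 := mul_ne_zero hb0' (inv_ne_zero ha)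
        obtain ⟨n, hn⟩ := exD T hT hba (Or.inl rfl)
        have hx : ψ t = t * n := by
          refine Subtype.ext (isD_ext hψt (isD_congr (isD_mul ht hn) ?_ (mul_one 1)))
          rw [mul_left_comm, mul_inv_cancel₀ ha, mul_one]
        have hbae : (b * a⁻¹) ^ (2 ^ e) = 1 := by
          rw [mul_pow, inv_pow, h1, hb3]; simp
        have hnfix : ψ n = n := ih (b * a⁻¹) hba (hbsq.mul hasq'.inv) hbae n hn
        have hn1 : n ^ (2 ^ e) = 1 := hDone _ (isD_congr (hpow n _ hn _) hbae rfl)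
        have := fix_of_mul ψ o ho hψ t n hnfix e hn1 hx
        rw [hx, this, mul_one]
  have hS : ∀ a : ZMod q, a ≠ 0 → IsSquare a → ∀ t : T, IsD (t : LE q) a 1 → ψ t = t := by
    intro a ha hasq t ht
    refine hsq (m + 2) a ha hasq ?_ t ht
    obtain ⟨c0, rfl⟩ := hasq
    have hc00 : c0 ≠ 0 := by rintro rfl; simp at ha
    rw [← pow_two, ← pow_mul, ← pow_succ']
    exact hferm c0 hc00
  obtain ⟨yi, hyi⟩ := exD T hT hi0 (Or.inl rfl)
  have hyifix : ψ yi = yi := hS i hi0 hisq yi hyi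
  obtain ⟨ym, hym⟩ := exD T hT hm1 (Or.inl rfl)
  have hymfix : ψ ym = ym := hS (-1) hm1 hm1sq ym hym
  have hdiag : ∀ t : T, ∀ a s : ZMod q, IsD (t : LE q) a s →
      ∃ b s' : ZMod q, b ≠ 0 ∧ (s' = 1 ∨ s' = -1) ∧ IsD ((ψ t : T) : LE q) b s' := by
    intro t a s ht
    have hcomm : t * yi = yi * t :=
      Subtype.ext (isD_ext (isD_mul ht hyi)
        (isD_congr (isD_mul hyi ht) (mul_comm _ _) (mul_comm _ _)))
    have hcomm2 : ψ t * yi = yi * ψ t := by
      have := congrArg ψ hcomm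
      rwa [map_mul, map_mul, hyifix] at this
    obtain ⟨b, s', hb, hs', h | h⟩ := hform (ψ t)
    · exact ⟨b, s', hb, hs', h⟩
    · exfalso
      have e1 : ((ψ t : T) : LE q) ((yi : LE q) ![1, 0]) =
          (yi : LE q) (((ψ t : T) : LE q) ![1, 0]) :=
        congrArg (fun z : T => (z : LE q) ![1, 0]) hcomm2
      rw [isD_apply hyi, isM_apply h, isM_apply h, isD_apply hyi] at e1
      have e2 := (vec2_inj e1).2
      have e3 : b * (i * i) = b * 1 := by
        have h3 : i * (b * (i * 1)) = i * (1 * i⁻¹ * (b * 1)) := by rw [e2]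
        rw [show i * (1 * i⁻¹ * (b * 1)) = (i * i⁻¹) * b by ring, mul_inv_cancel₀ hi0] at h3
        linear_combination h3
      have e4 : i * i = 1 := mul_left_cancel₀ hb e3
      rw [hii] at e4
      exact hne e4
  obtain ⟨u, hu⟩ := exD T hT (one_ne_zero) (Or.inr rfl)
  have huu : u * u = 1 := hDone _ (isD_congr (isD_mul hu hu) (mul_one 1) (by ring))
  have hymym : ym * ym = 1 := hDone _ (isD_congr (isD_mul hym hym) (by ring) (mul_one 1))
  have huy : IsD ((u * ym : T) : LE q) (-1) (-1) :=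
    isD_congr (isD_mul hu hym) (by ring) (by ring)
  have hufix : ψ u = u := by
    obtain ⟨b, s', hb, hs', h⟩ := hdiag u 1 (-1) hu
    have hbb : b * b = 1 := by
      have h2 : IsD ((ψ u * ψ u : T) : LE q) (b * b) (s' * s') := isD_mul h h
      have h3 : (ψ u * ψ u : T) = 1 := by rw [← map_mul, huu, map_one]
      rw [h3] at h2
      exact isD_param h2 isD_one
    rcases mul_self_eq_one_iff.mp hbb with rfl | rfl
    · rcases hs' with rfl | rfl
      · exfalso
        have h5 : ψ u = 1 := hDone _ h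
        have h6 : u = 1 := ψ.injective (h5.trans (map_one ψ).symm)
        rw [h6] at hu
        exact hne (isD_param_s one_ne_zero hu isD_one)
      · exact Subtype.ext (isD_ext h hu)
    · rcases hs' with rfl | rfl
      · exfalso
        have h5 : ψ u = ym := Subtype.ext (isD_ext h hym)
        have h6 : u = ym := ψ.injective (h5.trans hymfix.symm)
        rw [h6] at hu
        exact hne (isD_param hym hu)
      · have hx : ψ u = u * ym := Subtype.ext (isD_ext h huy)
        have := fix_of_mul ψ o ho hψ u ym hymfix 1 (by rw [pow_one, pow_two]; exact hymym) hx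
        rw [hx, this, mul_one]
  have hE : ∀ t : T, ∀ ε σ : ZMod q, (ε = 1 ∨ ε = -1) → (σ = 1 ∨ σ = -1) →
      IsD (t : LE q) ε σ → ψ t = t := by
    rintro t ε σ (rfl | rfl) (rfl | rfl) ht
    · rw [hDone t ht, map_one]
    · rw [show t = u from Subtype.ext (isD_ext ht hu)]; exact hufix
    · rw [show t = ym from Subtype.ext (isD_ext ht hym)]; exact hymfix
    · rw [show t = u * ym from Subtype.ext (isD_ext ht huy), map_mul, hufix, hymfix]
  have hσσ : ∀ s s' : ZMod q, (s = 1 ∨ s = -1) → (s' = 1 ∨ s' = -1) →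
      (s * s' = 1 ∨ s * s' = -1) := by
    rintro s s' (rfl | rfl) (rfl | rfl) <;> simp
  have hDfix : ∀ t : T, ∀ a s : ZMod q, a ≠ 0 → (s = 1 ∨ s = -1) →
      IsD (t : LE q) a s → ψ t = t := by
    intro t a s ha hs ht
    obtain ⟨b, s', hb, hs', h⟩ := hdiag t a s ht
    have htt : IsD ((t * t : T) : LE q) (a * a) 1 := isD_congr (isD_mul ht ht) rfl (hs0 s hs).2
    have hfix2 : ψ (t * t) = t * t := hS (a * a) (mul_ne_zero ha ha) ⟨a, rfl⟩ _ htt
    have hbb : b * b = a * a := by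
      have h2 : IsD ((ψ t * ψ t : T) : LE q) (b * b) (s' * s') := isD_mul h h
      rw [← map_mul, hfix2] at h2
      exact isD_param h2 htt
    have hε : b * a⁻¹ = 1 ∨ b * a⁻¹ = -1 := by
      rcases mul_self_eq_mul_self_iff.mp hbb with h3 | h3
      · left; rw [h3]; exact mul_inv_cancel₀ ha
      · right; rw [h3, neg_mul, mul_inv_cancel₀ ha]
    have hσ := hσσ s s' hs hs'
    obtain ⟨n, hn⟩ := exD T hT (mul_ne_zero hb (inv_ne_zero ha)) hσ
    have hx : ψ t = t * n := by
      refine Subtype.ext (isD_ext h (isD_congr (isD_mul ht hn) ?_ ?_))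
      · rw [mul_left_comm, mul_inv_cancel₀ ha, mul_one]
      · rw [← mul_assoc, (hs0 s hs).2, one_mul]
    have hnfix : ψ n = n := hE n _ _ hε hσ hn
    have hnn : n ^ (2 ^ 1) = 1 := by
      rw [pow_one, pow_two]
      refine hDone _ (isD_congr (isD_mul hn hn) ?_ (hs0 _ hσ).2)
      rcases hε with h3 | h3 <;> rw [h3] <;> ring
    have := fix_of_mul ψ o ho hψ t n hnfix 1 hnn hx
    rw [hx, this, mul_one]
  have hMfix : ∀ t : T, ∀ a s : ZMod q, a ≠ 0 → (s = 1 ∨ s = -1) →
      IsM (t : LE q) a s → ψ t = t := by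
    intro t a s ha hs ht
    obtain ⟨b, s', hb, hs', h | h⟩ := hform (ψ t)
    · have h1 : ψ (ψ t) = ψ t := hDfix (ψ t) b s' hb hs' h
      have h2 : ψ t = t := ψ.injective h1
      rw [h2] at h
      exact absurd (isD_isM_false h ht) ha
    · have hσ := hσσ s s' hs hs'
      have hba : b * a⁻¹ ≠ 0 := mul_ne_zero hb (inv_ne_zero ha)
      obtain ⟨n, hn⟩ := exD T hT hba hσ
      have hx : ψ t = t * n := by
        refine Subtype.ext (isM_ext h (isM_congr (isM_mul_isD ht hn) ?_ ?_))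
        · rw [mul_left_comm, mul_inv_cancel₀ ha, mul_one]
        · rw [← mul_assoc, (hs0 s hs).2, one_mul]
      have hnfix : ψ n = n := hDfix n _ _ hba hσ hn
      have hnn : n ^ (2 ^ (m + 3)) = 1 := by
        have h1 : IsD ((n * n : T) : LE q) ((b * a⁻¹) * (b * a⁻¹)) 1 :=
          isD_congr (isD_mul hn hn) rfl (hs0 _ hσ).2
        have h2 := hpow (n * n) _ h1 (2 ^ (m + 2))
        have h3 : ((b * a⁻¹) * (b * a⁻¹)) ^ (2 ^ (m + 2)) = 1 := by
          rw [← pow_two, ← pow_mul, ← pow_succ']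
          exact hferm _ hba
        have h4 : (n * n) ^ (2 ^ (m + 2)) = 1 := hDone _ (isD_congr h2 h3 rfl)
        rw [← pow_two, ← pow_mul, ← pow_succ'] at h4
        exact h4
      have := fix_of_mul ψ o ho hψ t n hnfix (m + 3) hnn hx
      rw [hx, this, mul_one]
  apply MulEquiv.ext
  intro t
  show ψ t = t
  obtain ⟨a, s, ha, hs, h | h⟩ := hform t
  · exact hDfix t a s ha hs h
  · exact hMfix t a s ha hs h

end Cfsg.Agent.Helper17.MonoT
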