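import Cfsg.Agent.S4304
import Mathlib

set_option autoImplicit false

namespace Cfsg.Agent.Helper17.Syl21

universe u

open scoped Pointwise

theorem eq_one_of_dvd21 {c : ℕ} (h1 : c ∣ 21) (h2 : c ≡ 1 [MOD 5]) (h3 : c ≠ 21) : c = 1 := by
  have hle : c ≤ 21 := Nat.le_of_dvd (by norm_num) h1
  unfold Nat.ModEq at h2
  interval_cases c <;> omega

/-- A counterexample of minimal order. -/
def MinCex (G : Type u) [Group G] [Finite G] : Prop :=
  Nat.card (Sylow 5 G) = 21 ∧
    ∀ (H : Type u) [Group H] [Finite H], Nat.card H < Nat.card G → Nat.card (Sylow 5 H) ≠ 21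

/-- Fixed points of an element of `p`-power order on an invariant set, mod `p`. -/
theorem modfix {G : Type*} [Group G] {Ω : Type*} [MulAction G Ω] [Finite Ω] (p : ℕ)
    [Fact p.Prime] (g : G) (k : ℕ) (hg : g ^ p ^ k = 1) (A : Set Ω)
    (hA : ∀ S, g • S ∈ A ↔ S ∈ A) :
    A.ncard ≡ (A ∩ {S | g • S = S}).ncard [MOD p] := by
  classical
  haveI : Fintype Ω := Fintype.ofFinite _
  obtain ⟨τ, hτ⟩ : ∃ τ : Equiv.Perm Ω, τ = MulAction.toPermHom G Ω g := ⟨_, rfl⟩
  have hτapp : ∀ S, τ S = g • S := fun S => by rw [hτ]; rfl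
  have hτp : τ ^ p ^ k = 1 := by rw [hτ, ← map_pow, hg, map_one]
  have hinv : ∀ S, τ S ∈ A ↔ S ∈ A := fun S => by rw [hτapp]; exact hA S
  have hτ' : (τ.subtypePerm hinv) ^ p ^ k = 1 := by
    refine Equiv.Perm.ext fun S => Subtype.ext ?_
    rw [Equiv.Perm.subtypePerm_pow]
    show (τ ^ p ^ k) S.1 = S.1
    rw [hτp]; rfl
  have h3 := Equiv.Perm.card_compl_support_modEq hτ'
  have h4 : Fintype.card {S // S ∈ A} = A.ncard := by
    rw [← Nat.card_eq_fintype_card]; exact Nat.card_coe_set_eq A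
  have h5 : (τ.subtypePerm hinv).supportᶜ.card = (A ∩ {S | g • S = S}).ncard := by
    rw [← Finset.card_map (Function.Embedding.subtype _), ← Set.ncard_coe_finset]
    congr 1
    ext S
    simp only [Finset.coe_map, Function.Embedding.coe_subtype, Set.mem_image, Finset.mem_coe,
      Finset.mem_compl, Equiv.Perm.mem_support, not_not, Set.mem_inter_iff, Set.mem_setOf_eq]
    constructor
    · rintro ⟨⟨T, hT⟩, hfix, rfl⟩
      refine ⟨hT, ?_⟩
      have h6 : τ T = T := congrArg Subtype.val hfix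
      rw [hτapp] at h6
      exact h6
    · rintro ⟨hS, hfix⟩
      refine ⟨⟨S, hS⟩, ?_, rfl⟩
      apply Subtype.ext
      show τ S = S
      rw [hτapp]; exact hfix
  rw [h4, h5] at h3
  exact h3.symm

section Min

variable {G : Type u} [Group G] [Finite G] [hp5 : Fact (Nat.Prime 5)]

theorem quot_sylow_card_one (h : MinCex G) (D : Subgroup G) [D.Normal] (hne : D ≠ ⊥) :
    Nat.card (Sylow 5 (G ⧸ D)) = 1 := by
  have hlt : Nat.card (G ⧸ D) < Nat.card G := by
    rw [← Subgroup.index_eq_card, ← Subgroup.card_mul_index D]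
    have h1 : 1 < Nat.card D := (Subgroup.one_lt_card_iff_ne_bot D).mpr hne
    have h2 : 0 < D.index := Nat.pos_of_ne_zero (Subgroup.index_ne_zero_of_finite)
    nlinarith
  have h1 := Cfsg.Agent.S4304.card_sylow_quot_dvd 5 D
  rw [h.1] at h1
  exact eq_one_of_dvd21 h1 (card_sylow_modEq_one 5 (G ⧸ D)) (h.2 (G ⧸ D) hlt)

theorem no_normal_pgroup (h : MinCex G) (D : Subgroup G) [D.Normal] (hD : IsPGroup 5 D) :
    D = ⊥ := by
  by_contra hne
  obtain ⟨P⟩ : Nonempty (Sylow 5 G) := inferInstance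
  have h4 := quot_sylow_card_one h D hne
  have hf : Function.Surjective (QuotientGroup.mk' D) := QuotientGroup.mk'_surjective D
  haveI : Subsingleton (Sylow 5 (G ⧸ D)) := (Nat.card_eq_one_iff_unique.mp h4).1
  have hn : ((P.mapSurjective hf : Sylow 5 (G ⧸ D)) : Subgroup (G ⧸ D)).Normal :=
    Sylow.normal_of_subsingleton _
  have hcomap : ((P : Subgroup G).map (QuotientGroup.mk' D)).comap (QuotientGroup.mk' D) = P := by
    rw [QuotientGroup.comap_map_mk']
    exact sup_eq_right.mpr (hD.le_sylow_of_normal P)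
  have hPn : (P : Subgroup G).Normal := by
    rw [← hcomap]
    exact hn.comap _
  haveI := Sylow.unique_of_normal P hPn
  have h5 : Nat.card (Sylow 5 G) = 1 := Nat.card_unique
  rw [h.1] at h5
  omega

theorem bot_of_le_all (h : MinCex G) (D : Subgroup G) (hD : ∀ S : Sylow 5 G, D ≤ S) : D = ⊥ := by
  obtain ⟨P⟩ : Nonempty (Sylow 5 G) := inferInstance
  have hK : (P : Subgroup G).normalCore = ⊥ :=
    no_normal_pgroup h _ (P.2.to_le (Subgroup.normalCore_le _))
  rw [eq_bot_iff, ← hK]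
  intro d hd b
  have h1 : d ∈ ((b⁻¹ • P : Sylow 5 G) : Subgroup G) := hD _ hd
  rw [Sylow.coe_subgroup_smul, Subgroup.mem_pointwise_smul_iff_inv_smul_mem] at h1
  simpa [MulAut.smul_def] using h1

theorem eq_top_of_not_dvd_index (h : MinCex G) (K : Subgroup G) [K.Normal]
    (hK : ¬ 5 ∣ K.index) : K = ⊤ := by
  by_contra hne
  have hle : ∀ P : Sylow 5 G, (P : Subgroup G) ≤ K := by
    intro P x hx
    rw [← QuotientGroup.eq_one_iff (N := K)]
    obtain ⟨k, hk⟩ := P.2 ⟨x, hx⟩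
    have hk' : x ^ 5 ^ k = 1 := by
      have := congrArg Subtype.val hk
      simpa using this
    have h1 : orderOf (x : G ⧸ K) ∣ 5 ^ k := by
      apply orderOf_dvd_of_pow_eq_one
      rw [← QuotientGroup.mk_pow, hk']
      rfl
    have h2 : orderOf (x : G ⧸ K) ∣ K.index := by
      rw [Subgroup.index_eq_card]
      exact orderOf_dvd_natCard _
    have h3 : Nat.Coprime (5 ^ k) K.index :=
      Nat.Coprime.pow_left _ ((Nat.Prime.coprime_iff_not_dvd hp5.out).mpr hK)
    have h4 : orderOf (x : G ⧸ K) = 1 := Nat.eq_one_of_dvd_coprimes h3 h1 h2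
    exact orderOf_eq_one_iff.mp h4
  have hc := Cfsg.Agent.S4304.card_sylow_of_forall_le 5 K hle
  rw [h.1] at hc
  have hlt : Nat.card K < Nat.card G :=
    lt_of_le_of_ne (Subgroup.card_le_card_group K) (fun he => hne (Subgroup.eq_top_of_card_eq K he))
  exact h.2 K hlt hc

theorem stab_eq (P Q : Sylow 5 G) :
    MulAction.stabilizer (P : Subgroup G) Q = (Q : Subgroup G).subgroupOf P := by
  ext y
  rw [MulAction.mem_stabilizer_iff, Subgroup.mem_subgroupOf, Subgroup.smul_def,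
    Sylow.smul_eq_iff_mem_normalizer]
  constructor
  · intro hy
    have h1 := (P.2.inf_normalizer_sylow Q).le (Subgroup.mem_inf.mpr ⟨y.2, hy⟩)
    exact (Subgroup.mem_inf.mp h1).2
  · intro hy
    exact Subgroup.le_normalizer hy

theorem not_mem_orbit (P Q : Sylow 5 G) (hPQ : P ≠ Q) :
    P ∉ MulAction.orbit (P : Subgroup G) Q := by
  rintro ⟨y, hy⟩
  apply hPQ
  have h1 : (y⁻¹ : (P : Subgroup G)) • P = P := by
    rw [Subgroup.smul_def, Sylow.smul_eq_iff_mem_normalizer]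
    exact Subgroup.le_normalizer (y⁻¹).2
  have hy' : y • Q = P := hy
  have h2 : (y⁻¹ : (P : Subgroup G)) • P = Q := inv_smul_eq_iff.mpr hy'.symm
  exact h1.symm.trans h2

theorem orbit_ncard (h21 : Nat.card (Sylow 5 G) = 21) (P Q : Sylow 5 G) (hPQ : P ≠ Q) :
    (MulAction.orbit (P : Subgroup G) Q).ncard = 5 := by
  have hPnot := not_mem_orbit P Q hPQ
  obtain ⟨n, hn⟩ := P.2.card_orbit Q
  rw [Nat.card_coe_set_eq] at hn
  have hle : (MulAction.orbit (P : Subgroup G) Q).ncard + 1 ≤ 21 := by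
    rw [← h21, ← Set.ncard_insert_of_notMem hPnot]
    exact Set.ncard_le_card _
  have hne1 : (MulAction.orbit (P : Subgroup G) Q).ncard ≠ 1 := by
    intro h1
    apply hPQ
    have hsub : ∀ y : (P : Subgroup G), y • Q = Q := by
      intro y
      obtain ⟨a, ha⟩ := Set.ncard_eq_one.mp h1
      have e1 : y • Q ∈ MulAction.orbit (P : Subgroup G) Q := MulAction.mem_orbit _ _
      have e2 : Q ∈ MulAction.orbit (P : Subgroup G) Q := MulAction.mem_orbit_self _
      rw [ha, Set.mem_singleton_iff] at e1 e2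
      rw [e1, e2]
    have hfix : Q ∈ MulAction.fixedPoints (P : Subgroup G) (Sylow 5 G) := hsub
    have hle' : (P : Subgroup G) ≤ Q := (P.2.sylow_mem_fixedPoints_iff).mp hfix
    exact (Sylow.ext (P.3 Q.2 hle')).symm
  rcases n with _ | _ | n
  · rw [pow_zero] at hn; exact absurd hn hne1
  · rw [hn]; norm_num
  · exfalso
    have h25 : 25 ≤ 5 ^ (n + 1 + 1) := by
      calc 25 = 5 ^ 2 := by norm_num
        _ ≤ 5 ^ (n + 1 + 1) := Nat.pow_le_pow_right (by norm_num) (by omega)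
    omega

theorem pair_facts (h21 : Nat.card (Sylow 5 G) = 21) (P Q : Sylow 5 G) (hPQ : P ≠ Q) :
    Nat.card P = 5 * Nat.card ((P : Subgroup G) ⊓ Q : Subgroup G) ∧
    ∀ x ∈ (P : Subgroup G), MulAut.conj x • ((P : Subgroup G) ⊓ Q) = (P : Subgroup G) ⊓ Q := by
  have hidx : ((Q : Subgroup G).subgroupOf P).index = 5 := by
    rw [← stab_eq, MulAction.index_stabilizer, orbit_ncard h21 P Q hPQ]
  have hc1 : Nat.card ((Q : Subgroup G).subgroupOf P)
      = Nat.card ((P : Subgroup G) ⊓ Q : Subgroup G) := by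
    rw [← Subgroup.inf_subgroupOf_left (Q : Subgroup G) (P : Subgroup G)]
    exact Nat.card_congr (Subgroup.subgroupOfEquivOfLe inf_le_left).toEquiv
  have hcard : Nat.card P = 5 * Nat.card ((P : Subgroup G) ⊓ Q : Subgroup G) := by
    have h0 := Subgroup.card_mul_index ((Q : Subgroup G).subgroupOf P)
    rw [hidx, hc1] at h0
    omega
  refine ⟨hcard, ?_⟩
  obtain ⟨m, hm⟩ := IsPGroup.iff_card.mp P.2
  have hm0 : m ≠ 0 := by
    rintro rfl
    rw [pow_zero] at hm
    omega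
  haveI hnorm : ((Q : Subgroup G).subgroupOf P).Normal := by
    apply Subgroup.normal_of_index_eq_minFac_card
    rw [hidx, hm, Nat.pow_minFac hm0, Nat.Prime.minFac_eq hp5.out]
  have hle : ∀ x ∈ (P : Subgroup G),
      MulAut.conj x • ((P : Subgroup G) ⊓ Q) ≤ (P : Subgroup G) ⊓ Q := by
    intro x hx
    rintro _ ⟨d, hd, rfl⟩
    have hd' : d ∈ (P : Subgroup G) ⊓ Q := hd
    have h1 : (⟨x, hx⟩ : (P : Subgroup G)) * ⟨d, hd'.1⟩ * (⟨x, hx⟩ : (P : Subgroup G))⁻¹
        ∈ (Q : Subgroup G).subgroupOf P :=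
      hnorm.conj_mem _ (Subgroup.mem_subgroupOf.mpr hd'.2) _
    rw [Subgroup.mem_subgroupOf] at h1
    have h1' : x * d * x⁻¹ ∈ (Q : Subgroup G) := by simpa using h1
    show MulAut.conj x • d ∈ (P : Subgroup G) ⊓ Q
    rw [MulAut.smul_def, MulAut.conj_apply, Subgroup.mem_inf]
    exact ⟨Subgroup.mul_mem _ (Subgroup.mul_mem _ hx hd'.1) (Subgroup.inv_mem _ hx), h1'⟩
  intro x hx
  refine le_antisymm (hle x hx) ?_
  rw [Subgroup.subset_pointwise_smul_iff, ← map_inv]
  exact hle x⁻¹ (inv_mem hx)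

/-- Pigeonhole: among five Sylow subgroups different from `R`, two are conjugate under `R`. -/
theorem ph (h21 : Nat.card (Sylow 5 G) = 21) (R : Sylow 5 G) (B : Set (Sylow 5 G))
    (hR : R ∉ B) (hB : 5 ≤ B.ncard) :
    ∃ S ∈ B, ∃ S' ∈ B, S ≠ S' ∧ ∃ y ∈ (R : Subgroup G), y • S = S' := by
  classical
  haveI : Fintype (Sylow 5 G) := Fintype.ofFinite _
  have hcardΩ : Fintype.card (Sylow 5 G) = 21 := by rw [← Nat.card_eq_fintype_card]; exact h21
  obtain ⟨f, hf⟩ : ∃ f : Sylow 5 G → Set (Sylow 5 G),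
      f = fun S => MulAction.orbit (R : Subgroup G) S := ⟨_, rfl⟩
  have hfeq : ∀ S T : Sylow 5 G, f T = f S ↔ T ∈ MulAction.orbit (R : Subgroup G) S := by
    intro S T; rw [hf]; exact MulAction.orbit_eq_iff
  obtain ⟨Bf, hBf⟩ : ∃ Bf : Finset (Sylow 5 G), Bf = Finset.univ.filter (· ∈ B) := ⟨_, rfl⟩
  have hBfmem : ∀ S, S ∈ Bf ↔ S ∈ B := by intro S; rw [hBf]; simp
  have hBfcard : Bf.card = B.ncard := by
    rw [← Set.ncard_coe_finset]; congr 1; ext S; simp [hBfmem]
  obtain ⟨t, ht⟩ : ∃ t : Finset (Set (Sylow 5 G)), t = Bf.image f := ⟨_, rfl⟩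
  obtain ⟨s', hs'⟩ : ∃ s' : Finset (Sylow 5 G), s' = Finset.univ.filter (fun a => f a ∈ t) :=
    ⟨_, rfl⟩
  have hfib : ∀ b ∈ t, (s'.filter (fun a => f a = b)).card = 5 := by
    intro b hb
    rw [ht, Finset.mem_image] at hb
    obtain ⟨S, hS, rfl⟩ := hb
    have hSR : R ≠ S := fun e => hR (e ▸ (hBfmem S).mp hS)
    refine Eq.trans ?_ (orbit_ncard h21 R S hSR)
    rw [← Set.ncard_coe_finset]
    congr 1
    ext T
    simp only [Finset.coe_filter, Set.mem_setOf_eq]
    rw [hfeq, hs', Finset.mem_filter]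
    constructor
    · rintro ⟨-, h2⟩; exact h2
    · intro h2
      refine ⟨⟨Finset.mem_univ _, ?_⟩, h2⟩
      rw [(hfeq S T).mpr h2, ht]; exact Finset.mem_image_of_mem f hS
  have hs'card : s'.card = t.card * 5 := by
    rw [Finset.card_eq_sum_card_fiberwise (f := f) (t := t)
      (fun a ha => by rw [hs'] at ha; exact (Finset.mem_filter.mp ha).2)]
    exact Finset.sum_const_nat hfib
  have hRs' : R ∉ s' := by
    intro hmem
    rw [hs', Finset.mem_filter, ht, Finset.mem_image] at hmem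
    obtain ⟨-, S, hS, hfS⟩ := hmem
    have hSR : R ≠ S := fun e => hR (e ▸ (hBfmem S).mp hS)
    exact not_mem_orbit R S hSR ((hfeq S R).mp hfS.symm)
  have hs'le : s'.card + 1 ≤ 21 := by
    rw [← hcardΩ, ← Finset.card_insert_of_notMem hRs']
    exact Finset.card_le_univ _
  have htlt : t.card < Bf.card := by rw [hBfcard]; omega
  obtain ⟨S, hS, S', hS', hne, hfSS'⟩ := Finset.exists_ne_map_eq_of_card_lt_of_maps_to htlt
    (fun a ha => by rw [ht]; exact Finset.mem_image_of_mem f ha)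
  refine ⟨S, (hBfmem S).mp hS, S', (hBfmem S').mp hS', hne, ?_⟩
  obtain ⟨y, hy⟩ := (hfeq S S').mp hfSS'.symm
  exact ⟨y, y.2, hy⟩

theorem inf_eq_bot (h : MinCex G) (P Q : Sylow 5 G) (hPQ : P ≠ Q) :
    (P : Subgroup G) ⊓ Q = ⊥ := by
  apply bot_of_le_all h
  intro R
  by_contra hR
  obtain ⟨D, hD⟩ : ∃ D : Subgroup G, D = (P : Subgroup G) ⊓ Q := ⟨_, rfl⟩
  rw [← hD] at hR
  obtain ⟨B, hBdef⟩ : ∃ B : Set (Sylow 5 G), B = {S : Sylow 5 G | D ≤ (S : Subgroup G)} :=
    ⟨_, rfl⟩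
  have hRB : R ∉ B := by rw [hBdef]; exact hR
  obtain ⟨-, hnorm⟩ := pair_facts h.1 P Q hPQ
  have hPnot := not_mem_orbit P Q hPQ
  have h1 : (insert P (MulAction.orbit (P : Subgroup G) Q)).ncard = 6 := by
    rw [Set.ncard_insert_of_notMem hPnot, orbit_ncard h.1 P Q hPQ]
  have hsub : insert P (MulAction.orbit (P : Subgroup G) Q) ⊆ B := by
    rintro S hS
    rw [hBdef, hD]
    show (P : Subgroup G) ⊓ Q ≤ (S : Subgroup G)
    rcases hS with hS | ⟨y, hy⟩
    · rw [hS]; exact inf_le_left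
    · rw [← hy]
      show _ ≤ ((y • Q : Sylow 5 G) : Subgroup G)
      rw [Subgroup.smul_def, Sylow.coe_subgroup_smul]
      refine le_trans (le_of_eq (hnorm y y.2).symm) ?_
      rw [Subgroup.pointwise_smul_le_pointwise_smul_iff]
      exact inf_le_right
  have hB5 : 5 ≤ B.ncard := by
    have := Set.ncard_le_ncard hsub
    omega
  obtain ⟨S, hS, S', hS', hne, y, hy, hyS⟩ := ph h.1 R B hRB hB5
  have hRS : R ≠ S := fun e => hRB (e ▸ hS)
  obtain ⟨hc1, hn1⟩ := pair_facts h.1 R S hRS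
  obtain ⟨hc2, -⟩ := pair_facts h.1 S S' hne
  have hle1 : (R : Subgroup G) ⊓ S ≤ (S : Subgroup G) ⊓ S' := by
    refine le_inf inf_le_right ?_
    rw [← hyS, Sylow.coe_subgroup_smul, ← hn1 y hy,
      Subgroup.pointwise_smul_le_pointwise_smul_iff]
    exact inf_le_right
  have heq : (R : Subgroup G) ⊓ S = (S : Subgroup G) ⊓ S' := by
    apply Subgroup.eq_of_le_of_card_ge hle1
    have hRS' : Nat.card R = Nat.card S := by
      rw [R.card_eq_multiplicity, S.card_eq_multiplicity]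
    omega
  have hDS : D ≤ (S : Subgroup G) := by rw [hBdef] at hS; exact hS
  have hDS' : D ≤ (S' : Subgroup G) := by rw [hBdef] at hS'; exact hS'
  apply hR
  calc D ≤ (S : Subgroup G) ⊓ S' := le_inf hDS hDS'
    _ = (R : Subgroup G) ⊓ S := heq.symm
    _ ≤ R := inf_le_left

theorem card_sylow5 (h : MinCex G) (P : Sylow 5 G) : Nat.card P = 5 := by
  have hex : ∃ Q : Sylow 5 G, P ≠ Q := by
    by_contra hcon
    push Not at hcon
    haveI : Subsingleton (Sylow 5 G) := ⟨fun a b => by rw [← hcon a, ← hcon b]⟩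
    have h1 : Nat.card (Sylow 5 G) = 1 := Nat.card_unique
    rw [h.1] at h1; omega
  obtain ⟨Q, hPQ⟩ := hex
  obtain ⟨hcard, -⟩ := pair_facts h.1 P Q hPQ
  rw [hcard, inf_eq_bot h P Q hPQ, Subgroup.card_bot]

theorem pow_five_eq_one (h : MinCex G) (P : Sylow 5 G) {x : G} (hx : x ∈ (P : Subgroup G)) :
    x ^ 5 = 1 := by
  have h2 : (⟨x, hx⟩ : (P : Subgroup G)) ^ Nat.card (P : Subgroup G) = 1 := pow_card_eq_one'
  rw [card_sylow5 h P] at h2
  simpa using congrArg Subtype.val h2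

theorem fixes_all_eq_one (h : MinCex G) (e : G) (he : ∀ S : Sylow 5 G, e • S = S) : e = 1 := by
  obtain ⟨P⟩ : Nonempty (Sylow 5 G) := inferInstance
  obtain ⟨K0, hK0⟩ : ∃ K0 : Subgroup G, K0 = (MulAction.toPermHom G (Sylow 5 G)).ker :=
    ⟨_, rfl⟩
  haveI : K0.Normal := by rw [hK0]; infer_instance
  have hmem : ∀ g : G, g ∈ K0 ↔ ∀ S : Sylow 5 G, g • S = S := by
    intro g
    rw [hK0, MonoidHom.mem_ker, Equiv.Perm.ext_iff]
    rfl
  have hbot : K0 = ⊥ := by
    by_contra hne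
    have h4 := quot_sylow_card_one h K0 hne
    have hf : Function.Surjective (QuotientGroup.mk' K0) := QuotientGroup.mk'_surjective K0
    haveI : Subsingleton (Sylow 5 (G ⧸ K0)) := (Nat.card_eq_one_iff_unique.mp h4).1
    have hn : ((P.mapSurjective hf : Sylow 5 (G ⧸ K0)) : Subgroup (G ⧸ K0)).Normal :=
      Sylow.normal_of_subsingleton _
    have hcomap : ((P : Subgroup G).map (QuotientGroup.mk' K0)).comap (QuotientGroup.mk' K0)
        = K0 ⊔ P := QuotientGroup.comap_map_mk' K0 P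
    haveI hLn : (K0 ⊔ (P : Subgroup G)).Normal := by rw [← hcomap]; exact hn.comap _
    have hidx : ¬ 5 ∣ (K0 ⊔ (P : Subgroup G)).index := fun hd =>
      P.not_dvd_index (hd.trans (Subgroup.index_dvd_of_le le_sup_right))
    have htop := eq_top_of_not_dvd_index h _ hidx
    have hle : K0 ⊔ (P : Subgroup G) ≤ Subgroup.normalizer ((P : Subgroup G) : Set G) := by
      apply sup_le
      · intro g hg
        exact Sylow.smul_eq_iff_mem_normalizer.mp ((hmem g).mp hg P)
      · exact Subgroup.le_normalizer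
    rw [htop] at hle
    have hPn : (P : Subgroup G).Normal :=
      Subgroup.normalizer_eq_top_iff.mp (top_le_iff.mp hle)
    haveI := Sylow.unique_of_normal P hPn
    have h5 : Nat.card (Sylow 5 G) = 1 := Nat.card_unique
    rw [h.1] at h5; omega
  have h6 : e ∈ K0 := (hmem e).mpr he
  rw [hbot] at h6
  exact Subgroup.mem_bot.mp h6

theorem smul_eq_iff_eq (h : MinCex G) (P S : Sylow 5 G) (x : G) (hx : x ∈ (P : Subgroup G))
    (hx1 : x ≠ 1) : x • S = S ↔ S = P := by
  constructor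
  · intro hxS
    by_contra hne
    have h1 : x ∈ (P : Subgroup G) ⊓ Subgroup.normalizer (S : Set G) :=
      Subgroup.mem_inf.mpr ⟨hx, Sylow.smul_eq_iff_mem_normalizer.mp hxS⟩
    rw [P.2.inf_normalizer_sylow S, inf_eq_bot h P S (fun e => hne e.symm)] at h1
    exact hx1 (Subgroup.mem_bot.mp h1)
  · intro hS
    rw [hS, Sylow.smul_eq_iff_mem_normalizer]
    exact Subgroup.le_normalizer hx

theorem mem_of_pow_five (S : Sylow 5 G) (g : G) (k : ℕ) (hg : g ^ 5 ^ k = 1) (hS : g • S = S) :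
    g ∈ (S : Subgroup G) := by
  have hH : IsPGroup 5 (Subgroup.zpowers g) := by
    rintro ⟨x, hx⟩
    obtain ⟨z, rfl⟩ := Subgroup.mem_zpowers_iff.mp hx
    refine ⟨k, Subtype.ext ?_⟩
    show (g ^ z) ^ 5 ^ k = 1
    rw [← zpow_natCast, ← zpow_mul, mul_comm, zpow_mul, zpow_natCast, hg, one_zpow]
  have h1 : g ∈ Subgroup.zpowers g ⊓ Subgroup.normalizer (S : Set G) :=
    Subgroup.mem_inf.mpr ⟨Subgroup.mem_zpowers g, Sylow.smul_eq_iff_mem_normalizer.mp hS⟩
  rw [hH.inf_normalizer_sylow S] at h1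
  exact (Subgroup.mem_inf.mp h1).2

theorem pow_smul_fix {g : G} {S : Sylow 5 G} (hS : g • S = S) (k : ℕ) : g ^ k • S = S := by
  have h1 : g ∈ MulAction.stabilizer G S := hS
  exact Subgroup.pow_mem _ h1 k

/-- `x ^ (p-1)` centralizes a subgroup of prime order `p` normalized by `x`. -/
theorem pow_mem_cent_of_mem_norm (p : ℕ) [Fact p.Prime] (H : Subgroup G) (hH : Nat.card H = p)
    (x : G) (hx : x ∈ Subgroup.normalizer (H : Set G)) :
    x ^ (p - 1) ∈ Subgroup.centralizer (H : Set G) := by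
  have hd := Cfsg.Agent.S4304.relIndex_cent_dvd p H hH
  haveI hnorm : ((Subgroup.centralizer (H : Set G)).subgroupOf
      (Subgroup.normalizer (H : Set G))).Normal := by
    rw [← Subgroup.normalizerMonoidHom_ker]; infer_instance
  have h1 := Subgroup.pow_index_mem ((Subgroup.centralizer (H : Set G)).subgroupOf
      (Subgroup.normalizer (H : Set G))) (⟨x, hx⟩ : Subgroup.normalizer (H : Set G))
  obtain ⟨j, hj⟩ := hd
  have h2 := Subgroup.pow_mem _ h1 j
  rw [← pow_mul] at h2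
  have h3 : ((Subgroup.centralizer (H : Set G)).subgroupOf
      (Subgroup.normalizer (H : Set G))).index * j = p - 1 := hj.symm
  rw [h3, Subgroup.mem_subgroupOf] at h2
  simpa using h2

end Min

end Cfsg.Agent.Helper17.Syl21
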