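import Cfsg.Agent.Helper17.Syl21a

set_option autoImplicit false

namespace Cfsg.Agent.Helper17.Syl21

universe u

open scoped Pointwise

section Min

variable {G : Type u} [Group G] [Finite G] [hp5 : Fact (Nat.Prime 5)]

/-- The Sylow 5-subgroups normalized by `g`. -/
def Fix (g : G) : Set (Sylow 5 G) := {S | g • S = S}

theorem mem_Fix_conj {g e : G} {T : Sylow 5 G} :
    T ∈ Fix (g * e * g⁻¹) ↔ g⁻¹ • T ∈ Fix e := by
  show (g * e * g⁻¹) • T = T ↔ e • (g⁻¹ • T) = g⁻¹ • T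
  rw [mul_smul, mul_smul, smul_eq_iff_eq_inv_smul]

set_option maxHeartbeats 1000000 in
theorem cent_prime (h : MinCex G) (P : Sylow 5 G) (r : ℕ) (hr : r.Prime) (hr5 : r ≠ 5) (e : G)
    (he : orderOf e = r) (hec : e ∈ Subgroup.centralizer ((P : Subgroup G) : Set G)) :
    (r = 2 ∧ (Fix e).ncard = 1) ∨ (r = 3 ∧ (Fix e).ncard = 6) := by
  classical
  haveI : Fact r.Prime := ⟨hr⟩
  haveI : Fintype (Sylow 5 G) := Fintype.ofFinite _
  have hcardΩ : Fintype.card (Sylow 5 G) = 21 := by rw [← Nat.card_eq_fintype_card]; exact h.1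
  have her : e ^ r ^ 1 = 1 := by rw [pow_one, ← he, pow_orderOf_eq_one]
  have hFr : (Fix e).ncard ≡ 21 [MOD r] := by
    have h1 := modfix r e 1 her (Set.univ : Set (Sylow 5 G)) (fun S => by simp)
    rw [Set.ncard_univ, h.1, Set.univ_inter] at h1
    exact h1.symm
  have hP5 := card_sylow5 h P
  have hPne : (P : Subgroup G) ≠ ⊥ := by
    rw [← Subgroup.one_lt_card_iff_ne_bot, hP5]; norm_num
  obtain ⟨x, hx1⟩ := (Subgroup.ne_bot_iff_exists_ne_one).mp hPne
  have hx1' : (x : G) ≠ 1 := fun e1 => hx1 (Subtype.ext e1)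
  have hx5 : (x : G) ^ 5 ^ 1 = 1 := by rw [pow_one]; exact pow_five_eq_one h P x.2
  have hcomm : (x : G) * e = e * x := hec x x.2
  have hPF : P ∈ Fix e := by
    show e • P = P
    rw [Sylow.smul_eq_iff_mem_normalizer]
    exact Subgroup.centralizer_le_normalizer _ hec
  have hF5 : (Fix e).ncard ≡ 1 [MOD 5] := by
    have h1 := modfix 5 (x : G) 1 hx5 (Fix e) (fun S => by
      show e • ((x : G) • S) = (x : G) • S ↔ e • S = S
      rw [smul_smul, ← hcomm, mul_smul]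
      constructor
      · intro h1; exact smul_left_cancel _ h1
      · intro h1; rw [h1])
    have h2 : Fix e ∩ {S | (x : G) • S = S} = {P} := by
      ext S
      simp only [Set.mem_inter_iff, Set.mem_setOf_eq, Set.mem_singleton_iff]
      constructor
      · rintro ⟨-, h3⟩; exact (smul_eq_iff_eq h P S x x.2 hx1').mp h3
      · rintro rfl; exact ⟨hPF, (smul_eq_iff_eq h S S x x.2 hx1').mpr rfl⟩
    rw [h2, Set.ncard_singleton] at h1
    exact h1
  have hFle : (Fix e).ncard ≤ 21 := by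
    have := Set.ncard_le_card (Fix e)
    rw [h.1] at this; exact this
  have hFne : (Fix e).ncard ≠ 21 := by
    intro h21
    have huniv : Fix e = Set.univ := by
      rw [Set.eq_univ_iff_ncard, h21, h.1]
    have he1 : e = 1 := fixes_all_eq_one h e (fun S => by
      have : S ∈ Fix e := by rw [huniv]; exact Set.mem_univ _
      exact this)
    rw [he1, orderOf_one] at he
    exact hr.one_lt.ne he
  have hcases : (Fix e).ncard = 1 ∨ (Fix e).ncard = 6 ∨ (Fix e).ncard = 11 ∨ (Fix e).ncard = 16 := by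
    unfold Nat.ModEq at hF5
    omega
  rcases hcases with h1 | h6 | h11 | h16
  · left
    rw [h1] at hFr
    have hd : r ∣ 21 - 1 := (Nat.modEq_iff_dvd' (by norm_num)).mp hFr
    have hd' : r ∣ 2 ^ 2 * 5 := by norm_num at hd ⊢; exact hd
    rcases (Nat.Prime.dvd_mul hr).mp hd' with h2 | h5
    · exact ⟨(Nat.prime_dvd_prime_iff_eq hr (by norm_num)).mp (hr.dvd_of_dvd_pow h2), h1⟩
    · exact absurd ((Nat.prime_dvd_prime_iff_eq hr (by norm_num)).mp h5) hr5
  · right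
    rw [h6] at hFr
    have hd : r ∣ 21 - 6 := (Nat.modEq_iff_dvd' (by norm_num)).mp hFr
    have hd' : r ∣ 3 * 5 := by norm_num at hd ⊢; exact hd
    rcases (Nat.Prime.dvd_mul hr).mp hd' with h2 | h5
    · exact ⟨(Nat.prime_dvd_prime_iff_eq hr (by norm_num)).mp h2, h6⟩
    · exact absurd ((Nat.prime_dvd_prime_iff_eq hr (by norm_num)).mp h5) hr5
  · exfalso
    rw [h11] at hFr
    have hd : r ∣ 21 - 11 := (Nat.modEq_iff_dvd' (by norm_num)).mp hFr
    have hd' : r ∣ 2 * 5 := by norm_num at hd ⊢; exact hd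
    have hr2 : r = 2 := by
      rcases (Nat.Prime.dvd_mul hr).mp hd' with h2 | h5
      · exact (Nat.prime_dvd_prime_iff_eq hr (by norm_num)).mp h2
      · exact absurd ((Nat.prime_dvd_prime_iff_eq hr (by norm_num)).mp h5) hr5
    obtain ⟨σ, hσ⟩ : ∃ σ : Equiv.Perm (Sylow 5 G), σ = MulAction.toPermHom G (Sylow 5 G) e :=
      ⟨_, rfl⟩
    have hσapp : ∀ S, σ S = e • S := fun S => by rw [hσ]; rfl
    have hFσ : (Fix e).ncard = σ.supportᶜ.card := by
      rw [← Set.ncard_coe_finset]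
      congr 1
      ext S
      simp only [Finset.coe_compl, Set.mem_compl_iff, Finset.mem_coe, Equiv.Perm.mem_support,
        not_not, hσapp]
      rfl
    have hσ2 : σ ^ 2 = 1 := by
      rw [hσ, ← map_pow, ← hr2, ← he, pow_orderOf_eq_one, map_one]
    have hsign : Equiv.Perm.sign σ = -1 := by
      rw [Equiv.Perm.sign_of_pow_two_eq_one hσ2, Equiv.Perm.card_fixedPoints,
        Equiv.Perm.sum_cycleType, hcardΩ]
      have hsup : σ.support.card = 10 := by
        have h5 := Finset.card_compl σ.support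
        rw [← hFσ, h11, hcardΩ] at h5
        have h6 : σ.support.card ≤ 21 := by rw [← hcardΩ]; exact Finset.card_le_univ _
        omega
      rw [hsup]
      decide
    obtain ⟨ψ, hψ⟩ : ∃ ψ : G →* ℤˣ,
        ψ = (Equiv.Perm.sign).comp (MulAction.toPermHom G (Sylow 5 G)) := ⟨_, rfl⟩
    have hidx : ¬ 5 ∣ ψ.ker.index := by
      rw [Subgroup.index_ker]
      intro hd
      have h7 : Nat.card ψ.range ∣ Nat.card ℤˣ := Subgroup.card_subgroup_dvd_card _
      have hZ : Nat.card ℤˣ = 2 := by simp [Nat.card_eq_fintype_card]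
      rw [hZ] at h7
      have h8 := Nat.le_of_dvd (by norm_num) (hd.trans h7)
      omega
    have htop := eq_top_of_not_dvd_index h ψ.ker hidx
    have hek : e ∈ ψ.ker := by rw [htop]; exact Subgroup.mem_top e
    rw [MonoidHom.mem_ker, hψ, MonoidHom.comp_apply, ← hσ, hsign] at hek
    exact absurd hek (by decide)
  · exfalso
    rw [h16] at hFr
    have hd : r ∣ 21 - 16 := (Nat.modEq_iff_dvd' (by norm_num)).mp hFr
    have hd' : r ∣ 5 := by norm_num at hd ⊢; exact hd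
    exact hr5 ((Nat.prime_dvd_prime_iff_eq hr (by norm_num)).mp hd')

/-- `e` has order three and normalizes `S`. -/
def O3 (S : Sylow 5 G) (e : G) : Prop := e ^ 3 = 1 ∧ e ≠ 1 ∧ e • S = S

theorem O3.cent (h : MinCex G) {S : Sylow 5 G} {e : G} (he : O3 S e) :
    e ∈ Subgroup.centralizer ((S : Subgroup G) : Set G) := by
  have h4 := pow_mem_cent_of_mem_norm 5 (S : Subgroup G) (card_sylow5 h S) e
    (Sylow.smul_eq_iff_mem_normalizer.mp he.2.2)
  have h5 : e ^ (5 - 1) = e := by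
    show e ^ 4 = e
    rw [pow_succ, he.1, one_mul]
  rwa [h5] at h4

theorem O3.orderOf_eq {S : Sylow 5 G} {e : G} (he : O3 S e) : orderOf e = 3 :=
  haveI : Fact (Nat.Prime 3) := ⟨by norm_num⟩
  orderOf_eq_prime he.1 he.2.1

theorem O3.card (h : MinCex G) {S : Sylow 5 G} {e : G} (he : O3 S e) : (Fix e).ncard = 6 := by
  rcases cent_prime h S 3 (by norm_num) (by norm_num) e he.orderOf_eq (he.cent h) with
    ⟨h1, -⟩ | ⟨-, h2⟩
  · omega
  · exact h2

theorem O3.fix_eq (h : MinCex G) {S T : Sylow 5 G} {e : G} (he : O3 S e) (hT : e • T = T)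
    (hST : S ≠ T) : Fix e = insert S (MulAction.orbit (S : Subgroup G) T) := by
  symm
  refine Set.eq_of_subset_of_ncard_le ?_ ?_ (Set.toFinite _)
  · rintro U (rfl | ⟨y, rfl⟩)
    · exact he.2.2
    · show e • ((y : G) • T) = (y : G) • T
      have hcomm : (y : G) * e = e * y := (he.cent h) y y.2
      rw [smul_smul, ← hcomm, mul_smul, hT]
  · rw [he.card h, Set.ncard_insert_of_notMem (not_mem_orbit S T hST), orbit_ncard h.1 S T hST]

theorem O3.fix_eq_of_common (h : MinCex G) {S T : Sylow 5 G} {e e' : G} (he : O3 S e)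
    (he' : O3 S e') (hT : e • T = T) (hT' : e' • T = T) (hST : S ≠ T) : Fix e = Fix e' := by
  rw [he.fix_eq h hT hST, he'.fix_eq h hT' hST]

theorem O3.inter (h : MinCex G) {S : Sylow 5 G} {e e' : G} (he : O3 S e) (he' : O3 S e')
    (hne : Fix e ≠ Fix e') : ∀ T ∈ Fix e, T ∈ Fix e' → T = S := by
  intro T hT hT'
  by_contra hTS
  exact hne (he.fix_eq_of_common h he' hT hT' (fun e1 => hTS e1.symm))

theorem O3.conj {S : Sylow 5 G} {e : G} (he : O3 S e) (g : G) :
    O3 (g • S) (g * e * g⁻¹) := by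
  refine ⟨?_, ?_, ?_⟩
  · rw [conj_pow, he.1, mul_one, mul_inv_cancel]
  · intro h1
    apply he.2.1
    have h2 : e = g⁻¹ * (g * e * g⁻¹) * g := by group
    rw [h2, h1]; group
  · rw [mul_smul, mul_smul, inv_smul_smul, he.2.2]

theorem O3.not_invariant (h : MinCex G) {S : Sylow 5 G} {e e' : G} (he : O3 S e)
    (he' : O3 S e') (hne : Fix e ≠ Fix e') (hinv : ∀ T, e • T ∈ Fix e' ↔ T ∈ Fix e') :
    False := by
  haveI : Fact (Nat.Prime 3) := ⟨by norm_num⟩
  have h1 := modfix 3 e 1 (by rw [pow_one]; exact he.1) (Fix e') hinv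
  have h2 : Fix e' ∩ {T | e • T = T} = {S} := by
    ext T
    simp only [Set.mem_inter_iff, Set.mem_setOf_eq, Set.mem_singleton_iff]
    constructor
    · rintro ⟨hT', hT⟩
      exact he.inter h he' hne T hT hT'
    · rintro rfl; exact ⟨he'.2.2, he.2.2⟩
  rw [h2, Set.ncard_singleton, he'.card h] at h1
  exact absurd h1 (by decide)

theorem cover4 (h21 : Nat.card (Sylow 5 G) = 21) (R : Sylow 5 G)
    (A0 A1 A2 A3 : Set (Sylow 5 G))
    (hc0 : A0.ncard = 6) (hc1 : A1.ncard = 6) (hc2 : A2.ncard = 6) (hc3 : A3.ncard = 6)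
    (h01 : ∀ T ∈ A0, T ∈ A1 → T = R) (h02 : ∀ T ∈ A0, T ∈ A2 → T = R)
    (h03 : ∀ T ∈ A0, T ∈ A3 → T = R) (h12 : ∀ T ∈ A1, T ∈ A2 → T = R)
    (h13 : ∀ T ∈ A1, T ∈ A3 → T = R) (h23 : ∀ T ∈ A2, T ∈ A3 → T = R) (T : Sylow 5 G) :
    T ∈ A0 ∨ T ∈ A1 ∨ T ∈ A2 ∨ T ∈ A3 := by
  have e1 := Set.ncard_union_add_ncard_inter A0 A1
  have e2 := Set.ncard_union_add_ncard_inter (A0 ∪ A1) A2
  have e3 := Set.ncard_union_add_ncard_inter ((A0 ∪ A1) ∪ A2) A3
  have i1 : (A0 ∩ A1).ncard ≤ 1 := by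
    have hsub : A0 ∩ A1 ⊆ {R} := fun U hU => h01 U hU.1 hU.2
    have := Set.ncard_le_ncard hsub
    rwa [Set.ncard_singleton] at this
  have i2 : ((A0 ∪ A1) ∩ A2).ncard ≤ 1 := by
    have hsub : (A0 ∪ A1) ∩ A2 ⊆ {R} := by
      rintro U ⟨hU | hU, hU2⟩
      · exact h02 U hU hU2
      · exact h12 U hU hU2
    have := Set.ncard_le_ncard hsub
    rwa [Set.ncard_singleton] at this
  have i3 : (((A0 ∪ A1) ∪ A2) ∩ A3).ncard ≤ 1 := by
    have hsub : ((A0 ∪ A1) ∪ A2) ∩ A3 ⊆ {R} := by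
      rintro U ⟨(hU | hU) | hU, hU3⟩
      · exact h03 U hU hU3
      · exact h13 U hU hU3
      · exact h23 U hU hU3
    have := Set.ncard_le_ncard hsub
    rwa [Set.ncard_singleton] at this
  have hle : (((A0 ∪ A1) ∪ A2) ∪ A3).ncard ≤ 21 := by
    have := Set.ncard_le_card (((A0 ∪ A1) ∪ A2) ∪ A3)
    rw [h21] at this; exact this
  have huniv : ((A0 ∪ A1) ∪ A2) ∪ A3 = Set.univ := by
    rw [Set.eq_univ_iff_ncard, h21]
    omega
  have hT : T ∈ ((A0 ∪ A1) ∪ A2) ∪ A3 := by rw [huniv]; exact Set.mem_univ _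
  rcases hT with ((hT | hT) | hT) | hT
  · exact Or.inl hT
  · exact Or.inr (Or.inl hT)
  · exact Or.inr (Or.inr (Or.inl hT))
  · exact Or.inr (Or.inr (Or.inr hT))

theorem pi_cover (h : MinCex G) {S : Sylow 5 G} {e e' : G} (he : O3 S e) (he' : O3 S e')
    (hne : Fix e ≠ Fix e') (T : Sylow 5 G) : ∃ ε, O3 S ε ∧ ε • T = T := by
  have heS : e • S = S := he.2.2
  have heinvS : e⁻¹ • S = S := by rw [inv_smul_eq_iff, heS]
  have he2 : O3 S (e * e' * e⁻¹) := by have := he'.conj e; rwa [heS] at this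
  have he3 : O3 S (e⁻¹ * e' * e) := by
    have := he'.conj e⁻¹; rwa [heinvS, inv_inv] at this
  have hinvO : O3 S e⁻¹ := ⟨by rw [inv_pow, he.1, inv_one], by simpa using he.2.1, heinvS⟩
  have hFinv : Fix e⁻¹ = Fix e := by
    ext U
    show e⁻¹ • U = U ↔ e • U = U
    rw [inv_smul_eq_iff]; exact eq_comm
  have m2 : ∀ U, U ∈ Fix (e * e' * e⁻¹) ↔ e⁻¹ • U ∈ Fix e' := fun U => mem_Fix_conj
  have m3 : ∀ U, U ∈ Fix (e⁻¹ * e' * e) ↔ e • U ∈ Fix e' := fun U => by
    have h1 := mem_Fix_conj (g := e⁻¹) (e := e') (T := U)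
    rw [inv_inv] at h1; exact h1
  have d02 : Fix e ≠ Fix (e * e' * e⁻¹) := by
    intro heq
    apply hne
    ext U
    have h1 : e • U ∈ Fix (e * e' * e⁻¹) ↔ U ∈ Fix e' := by rw [m2, inv_smul_smul]
    rw [← h1, ← heq]
    show e • U = U ↔ e • (e • U) = e • U
    constructor
    · intro h2; rw [h2, h2]
    · intro h2; exact smul_left_cancel _ h2
  have d03 : Fix e ≠ Fix (e⁻¹ * e' * e) := by
    intro heq
    apply hne
    ext U
    have h1 : e⁻¹ • U ∈ Fix (e⁻¹ * e' * e) ↔ U ∈ Fix e' := by rw [m3, smul_inv_smul]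
    rw [← h1, ← heq]
    show e • U = U ↔ e • (e⁻¹ • U) = e⁻¹ • U
    rw [smul_inv_smul, eq_inv_smul_iff]
  have d12 : Fix e' ≠ Fix (e * e' * e⁻¹) := by
    intro heq
    apply hinvO.not_invariant h he' (by rw [hFinv]; exact hne)
    intro U
    rw [← m2, ← heq]
  have d13 : Fix e' ≠ Fix (e⁻¹ * e' * e) := by
    intro heq
    apply he.not_invariant h he' hne
    intro U
    rw [← m3, ← heq]
  have d23 : Fix (e * e' * e⁻¹) ≠ Fix (e⁻¹ * e' * e) := by
    intro heq
    apply he.not_invariant h he' hne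
    intro U
    have hk : ∀ V, e • V ∈ Fix e' ↔ e⁻¹ • V ∈ Fix e' := fun V => by rw [← m3, ← heq, m2]
    have he2' : e * e = e⁻¹ := by
      rw [eq_inv_iff_mul_eq_one, ← pow_two, ← pow_succ]; exact he.1
    rw [hk U]
    have h3 := hk (e • U)
    rw [inv_smul_smul, smul_smul, he2'] at h3
    exact h3
  rcases cover4 h.1 S (Fix e) (Fix e') (Fix (e * e' * e⁻¹)) (Fix (e⁻¹ * e' * e))
    (he.card h) (he'.card h) (he2.card h) (he3.card h)
    (he.inter h he' hne) (he.inter h he2 d02) (he.inter h he3 d03) (he'.inter h he2 d12)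
    (he'.inter h he3 d13) (he2.inter h he3 d23) T with h0 | h1 | h2 | h3
  · exact ⟨e, he, h0⟩
  · exact ⟨e', he', h1⟩
  · exact ⟨_, he2, h2⟩
  · exact ⟨_, he3, h3⟩

theorem no3 (h : MinCex G) {P : Sylow 5 G} {e : G} (he : O3 P e) : False := by
  have hex : ∃ R : Sylow 5 G, R ∉ Fix e := by
    by_contra hcon
    push Not at hcon
    exact he.2.1 (fixes_all_eq_one h e hcon)
  obtain ⟨R, hR⟩ := hex
  have hB6 := he.card h
  obtain ⟨S, hS, S', hS', hne, y, hy, hyS⟩ := ph h.1 R (Fix e) hR (by omega)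
  have heS : O3 S e := ⟨he.1, he.2.1, hS⟩
  have heS' : O3 S' e := ⟨he.1, he.2.1, hS'⟩
  have he' : O3 S' (y * e * y⁻¹) := by have := heS.conj y; rwa [hyS] at this
  have hy1 : y ≠ 1 := by rintro rfl; rw [one_smul] at hyS; exact hne hyS
  have hy5 : y⁻¹ ^ 5 ^ 1 = 1 := by rw [pow_one, inv_pow, pow_five_eq_one h R hy, inv_one]
  have hdiff : Fix e ≠ Fix (y * e * y⁻¹) := by
    intro heq
    have h1 := modfix 5 y⁻¹ 1 hy5 (Fix e) (fun T => by
      rw [← mem_Fix_conj, ← heq])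
    have h2 : Fix e ∩ {T | y⁻¹ • T = T} = ∅ := by
      ext T
      simp only [Set.mem_inter_iff, Set.mem_setOf_eq, Set.mem_empty_iff_false, iff_false]
      rintro ⟨hT, hyT⟩
      have h3 : T = R := (smul_eq_iff_eq h R T y⁻¹ (inv_mem hy) (inv_ne_one.mpr hy1)).mp hyT
      exact hR (h3 ▸ hT)
    rw [h2, Set.ncard_empty, hB6] at h1
    exact absurd h1 (by decide)
  have hPi := fun T => pi_cover h heS' he' hdiff T
  obtain ⟨g, hg⟩ := MulAction.exists_smul_eq G R S'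
  have he'' : O3 (g • S) (g * e * g⁻¹) := heS.conj g
  have hS'not : S' ∉ Fix (g * e * g⁻¹) := by
    rw [mem_Fix_conj, ← hg, inv_smul_smul]; exact hR
  obtain ⟨Sa, hSa, Sb, hSb, hab, y', hy', hy'S⟩ :=
    ph h.1 S' (Fix (g * e * g⁻¹)) hS'not (by rw [he''.card h]; norm_num)
  obtain ⟨e1, he1, he1Sa⟩ := hPi Sa
  have hcomm : y' * e1 = e1 * y' := (he1.cent h) y' hy'
  have he1Sb : e1 • Sb = Sb := by rw [← hy'S, smul_smul, ← hcomm, mul_smul, he1Sa]
  have h1 : O3 Sa e1 := ⟨he1.1, he1.2.1, he1Sa⟩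
  have h2 : O3 Sa (g * e * g⁻¹) := ⟨he''.1, he''.2.1, hSa⟩
  have heq := h1.fix_eq_of_common h h2 he1Sb hSb hab
  apply hS'not
  rw [← heq]; exact he1.2.2

/-- The centralizer of a Sylow 5-subgroup acts freely on the other Sylow 5-subgroups. -/
theorem free (h : MinCex G) (P Q : Sylow 5 G) (hPQ : P ≠ Q) (c : G)
    (hc : c ∈ Subgroup.centralizer ((P : Subgroup G) : Set G)) (hcQ : c • Q = Q) : c = 1 := by
  by_contra hc1
  have hn1 : orderOf c ≠ 1 := fun e => hc1 (orderOf_eq_one_iff.mp e)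
  have hpos : 0 < orderOf c := orderOf_pos c
  obtain ⟨r, hr, hrd⟩ := Nat.exists_prime_and_dvd hn1
  obtain ⟨c', hc'⟩ : ∃ c' : G, c' = c ^ (orderOf c / r) := ⟨_, rfl⟩
  have hord : orderOf c' = r := by rw [hc']; exact orderOf_pow_orderOf_div hpos.ne' hrd
  have hc'C : c' ∈ Subgroup.centralizer ((P : Subgroup G) : Set G) := by
    rw [hc']; exact Subgroup.pow_mem _ hc _
  have hc'Q : c' • Q = Q := by rw [hc']; exact pow_smul_fix hcQ _
  have hc'P : c' • P = P :=
    Sylow.smul_eq_iff_mem_normalizer.mpr (Subgroup.centralizer_le_normalizer _ hc'C)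
  have hc'1 : c' ≠ 1 := by
    intro e; rw [e, orderOf_one] at hord; exact hr.one_lt.ne hord
  by_cases hr5 : r = 5
  · have hp5' : c' ^ 5 ^ 1 = 1 := by rw [pow_one, ← hr5, ← hord, pow_orderOf_eq_one]
    have m1 := mem_of_pow_five P c' 1 hp5' hc'P
    have m2 := mem_of_pow_five Q c' 1 hp5' hc'Q
    have h3 : c' ∈ (P : Subgroup G) ⊓ Q := ⟨m1, m2⟩
    rw [inf_eq_bot h P Q hPQ] at h3
    exact hc'1 (Subgroup.mem_bot.mp h3)
  · rcases cent_prime h P r hr hr5 c' hord hc'C with ⟨-, h1⟩ | ⟨h3, -⟩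
    · obtain ⟨a, ha⟩ := Set.ncard_eq_one.mp h1
      have e1 : P ∈ Fix c' := hc'P
      have e2 : Q ∈ Fix c' := hc'Q
      rw [ha, Set.mem_singleton_iff] at e1 e2
      exact hPQ (e1.trans e2.symm)
    · exact no3 h (P := P) (e := c') ⟨by rw [← h3, ← hord, pow_orderOf_eq_one], hc'1, hc'P⟩

end Min

end Cfsg.Agent.Helper17.Syl21
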