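import Cfsg.Agent.Helper17.Syl21b

set_option autoImplicit false

namespace Cfsg.Agent.Helper17.Syl21

universe u

open scoped Pointwise

section Min

variable {G : Type u} [Group G] [Finite G] [hp5 : Fact (Nat.Prime 5)]

theorem sylow_le_cent (h : MinCex G) (P : Sylow 5 G) :
    (P : Subgroup G) ≤ Subgroup.centralizer ((P : Subgroup G) : Set G) := by
  haveI hcyc : IsCyclic (P : Subgroup G) := isCyclic_of_prime_card (card_sylow5 h P)
  exact Subgroup.le_centralizer (P : Subgroup G)

theorem exists_ne (h : MinCex G) (P : Sylow 5 G) : ∃ Q : Sylow 5 G, P ≠ Q := by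
  by_contra hcon
  push Not at hcon
  haveI : Subsingleton (Sylow 5 G) := ⟨fun a b => by rw [← hcon a, ← hcon b]⟩
  have h1 : Nat.card (Sylow 5 G) = 1 := Nat.card_unique
  rw [h.1] at h1; omega

theorem card_cent (h : MinCex G) (P : Sylow 5 G) :
    Nat.card (Subgroup.centralizer ((P : Subgroup G) : Set G)) = 5 ∨
    Nat.card (Subgroup.centralizer ((P : Subgroup G) : Set G)) = 10 ∨
    Nat.card (Subgroup.centralizer ((P : Subgroup G) : Set G)) = 20 := by
  obtain ⟨C, hC⟩ : ∃ C : Subgroup G, C = Subgroup.centralizer ((P : Subgroup G) : Set G) :=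
    ⟨_, rfl⟩
  rw [← hC]
  have h5 : 5 ∣ Nat.card C := by
    have h1 := Subgroup.card_dvd_of_le
      (show (P : Subgroup G) ≤ C by rw [hC]; exact sylow_le_cent h P)
    rwa [card_sylow5 h P] at h1
  obtain ⟨Q, hPQ⟩ := exists_ne h P
  have hle : Nat.card C ≤ 20 := by
    obtain ⟨f, hf⟩ : ∃ f : C → Sylow 5 G, f = fun c : C => (c : G) • Q := ⟨_, rfl⟩
    have hinj : Function.Injective f := by
      intro a b hab
      rw [hf] at hab
      have hab' : (a : G) • Q = (b : G) • Q := hab
      have h1 : ((b : G)⁻¹ * a) • Q = Q := by rw [mul_smul, hab', inv_smul_smul]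
      have h2 : (b : G)⁻¹ * a ∈ Subgroup.centralizer ((P : Subgroup G) : Set G) := by
        rw [← hC]; exact C.mul_mem (C.inv_mem b.2) a.2
      have h3 := free h P Q hPQ _ h2 h1
      apply Subtype.ext
      rw [inv_mul_eq_one] at h3
      exact h3.symm
    have hPnot : P ∉ Set.range f := by
      rintro ⟨c, hc⟩
      rw [hf] at hc
      have hc' : (c : G) • Q = P := hc
      have h0 : (c : G) ∈ Subgroup.centralizer ((P : Subgroup G) : Set G) := by
        rw [← hC]; exact c.2
      have h1 : (c : G) • P = P := by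
        rw [Sylow.smul_eq_iff_mem_normalizer]
        exact Subgroup.centralizer_le_normalizer _ h0
      apply hPQ
      have h2 : (c : G) • Q = (c : G) • P := by rw [hc', h1]
      exact (smul_left_cancel _ h2).symm
    have hr : (Set.range f).ncard = Nat.card C := by
      rw [← Set.image_univ, Set.ncard_image_of_injective _ hinj, Set.ncard_univ]
    have h1 : (insert P (Set.range f)).ncard ≤ 21 := by
      have := Set.ncard_le_card (insert P (Set.range f))
      rw [h.1] at this; exact this
    rw [Set.ncard_insert_of_notMem hPnot, hr] at h1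
    omega
  have h3 : ¬ 3 ∣ Nat.card C := by
    intro hd
    haveI : Fact (Nat.Prime 3) := ⟨by norm_num⟩
    obtain ⟨e, he⟩ := exists_prime_orderOf_dvd_card' 3 hd
    have he3 : orderOf (e : G) = 3 := by rw [Subgroup.orderOf_coe]; exact he
    have h0 : (e : G) ∈ Subgroup.centralizer ((P : Subgroup G) : Set G) := by
      rw [← hC]; exact e.2
    have hO : O3 P (e : G) := by
      refine ⟨?_, ?_, ?_⟩
      · rw [← he3, pow_orderOf_eq_one]
      · intro e1; rw [e1, orderOf_one] at he3; omega
      · rw [Sylow.smul_eq_iff_mem_normalizer]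
        exact Subgroup.centralizer_le_normalizer _ h0
    exact no3 h hO
  obtain ⟨k, hk⟩ := h5
  rw [hk] at hle h3 ⊢
  have hk4 : k ≤ 4 := by omega
  have hk0 : k ≠ 0 := by
    rintro rfl
    have : 0 < Nat.card C := Nat.card_pos
    omega
  interval_cases k <;> omega

theorem norm_card (h : MinCex G) (S : Sylow 5 G) :
    21 * Nat.card (Subgroup.normalizer ((S : Subgroup G) : Set G)) = Nat.card G := by
  have h1 := Subgroup.card_mul_index (Subgroup.normalizer ((S : Subgroup G) : Set G))
  have h2 := S.card_eq_index_normalizer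
  rw [h.1] at h2
  have h3 : (Subgroup.normalizer ((S : Subgroup G) : Set G)).index = 21 := h2.symm
  rw [h3] at h1
  omega

theorem norm_dvd80 (h : MinCex G) (S : Sylow 5 G) :
    Nat.card (Subgroup.normalizer ((S : Subgroup G) : Set G)) ∣ 80 := by
  obtain ⟨N, hN⟩ : ∃ N : Subgroup G, N = Subgroup.normalizer ((S : Subgroup G) : Set G) :=
    ⟨_, rfl⟩
  obtain ⟨C, hC⟩ : ∃ C : Subgroup G, C = Subgroup.centralizer ((S : Subgroup G) : Set G) :=
    ⟨_, rfl⟩
  have hrel : C.relIndex N ∣ 4 := by
    rw [hC, hN]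
    exact Cfsg.Agent.S4304.relIndex_cent_dvd 5 (S : Subgroup G) (card_sylow5 h S)
  have hCN : C ≤ N := by rw [hC, hN]; exact Subgroup.centralizer_le_normalizer _
  have hNcard : Nat.card N = Nat.card C * C.relIndex N := by
    have h1 := Subgroup.card_mul_index (C.subgroupOf N)
    rw [Nat.card_congr (Subgroup.subgroupOfEquivOfLe hCN).toEquiv] at h1
    exact h1.symm
  have hCc := card_cent h S
  rw [← hC] at hCc
  rw [← hN, hNcard]
  have hdle : C.relIndex N ≤ 4 := Nat.le_of_dvd (by norm_num) hrel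
  obtain ⟨d, hd⟩ : ∃ d, d = C.relIndex N := ⟨_, rfl⟩
  rw [← hd] at hrel hdle ⊢
  have hd0 : d ≠ 0 := by rintro rfl; simp at hrel
  rcases hCc with h5 | h5 | h5 <;> rw [h5] <;> interval_cases d <;> omega

theorem inter_le4 (h : MinCex G) (S S' : Sylow 5 G) (hne : S ≠ S') :
    Nat.card (MulAction.stabilizer G S ⊓ MulAction.stabilizer G S' : Subgroup G) ≤ 4 := by
  obtain ⟨H, hH⟩ : ∃ H : Subgroup G,
      H = MulAction.stabilizer G S ⊓ MulAction.stabilizer G S' := ⟨_, rfl⟩
  rw [← hH]
  have hS5 := card_sylow5 h S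
  haveI hcyc : IsCyclic (S : Subgroup G) := isCyclic_of_prime_card hS5
  have hle : H ≤ Subgroup.normalizer ((S : Subgroup G) : Set G) := by
    intro g hg
    rw [hH] at hg
    exact Sylow.smul_eq_iff_mem_normalizer.mp hg.1
  have hmemH : ∀ g ∈ H, g • S' = S' := by
    intro g hg
    rw [hH] at hg
    exact hg.2
  obtain ⟨ψ, hψ⟩ : ∃ ψ : H →* MulAut (S : Subgroup G),
      ψ = ((S : Subgroup G).normalizerMonoidHom).comp (Subgroup.inclusion hle) := ⟨_, rfl⟩
  have hinj : Function.Injective ψ := by
    rw [injective_iff_map_eq_one]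
    intro g hg
    have h1 : Subgroup.inclusion hle g ∈ ((S : Subgroup G).normalizerMonoidHom).ker := by
      rw [MonoidHom.mem_ker]; rw [hψ] at hg; exact hg
    rw [Subgroup.normalizerMonoidHom_ker, Subgroup.mem_subgroupOf] at h1
    have h2 : (g : G) ∈ Subgroup.centralizer ((S : Subgroup G) : Set G) := h1
    have h3 : (g : G) • S' = S' := hmemH g g.2
    apply Subtype.ext
    exact free h S S' hne g h2 h3
  have h4 := Nat.card_le_card_of_injective ψ hinj
  rw [IsCyclic.card_mulAut, hS5, Nat.totient_prime hp5.out] at h4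
  exact h4

theorem fix_ne_two (h : MinCex G) (g : G) : (Fix g).ncard ≠ 2 := by
  intro h2
  have hne : (Fix g).Nonempty := by
    rw [← Set.ncard_pos]; omega
  obtain ⟨S, hS⟩ := hne
  have hgN : g ∈ Subgroup.normalizer ((S : Subgroup G) : Set G) :=
    Sylow.smul_eq_iff_mem_normalizer.mp hS
  have h80 := norm_dvd80 h S
  have hg80 : g ^ 80 = 1 := by
    have h1 : (⟨g, hgN⟩ : Subgroup.normalizer ((S : Subgroup G) : Set G)) ^
        Nat.card (Subgroup.normalizer ((S : Subgroup G) : Set G)) = 1 := pow_card_eq_one'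
    obtain ⟨m, hm⟩ := h80
    have h3 := congrArg Subtype.val h1
    simp only [Subgroup.coe_pow, Subgroup.coe_one] at h3
    rw [hm, pow_mul, h3, one_pow]
  by_cases h16 : g ^ 16 = 1
  · haveI : Fact (Nat.Prime 2) := ⟨by norm_num⟩
    have h1 := modfix 2 g 4 (by norm_num; exact h16) (Set.univ : Set (Sylow 5 G))
      (fun S => by simp)
    rw [Set.ncard_univ, h.1, Set.univ_inter] at h1
    have h3 : {S : Sylow 5 G | g • S = S} = Fix g := rfl
    rw [h3, h2] at h1
    exact absurd h1 (by decide)
  · have hS16 : g ^ 16 • S = S := pow_smul_fix hS 16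
    have h5 : (g ^ 16) ^ 5 ^ 1 = 1 := by rw [pow_one, ← pow_mul]; exact hg80
    have hmem := mem_of_pow_five S (g ^ 16) 1 h5 hS16
    have hsub : Fix g ⊆ {S} := by
      intro T hT
      have hT16 : g ^ 16 • T = T := pow_smul_fix hT 16
      exact (smul_eq_iff_eq h S T (g ^ 16) hmem h16).mp hT16
    have h6 := Set.ncard_le_ncard hsub
    rw [Set.ncard_singleton] at h6
    omega

theorem syl7_facts (h : MinCex G) [Fact (Nat.Prime 7)] :
    Nat.card (Sylow 7 G) = 120 ∧ ∀ T : Sylow 7 G, Nat.card T = 7 := by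
  obtain ⟨P⟩ : Nonempty (Sylow 5 G) := inferInstance
  have hG := norm_card h P
  have h80 := norm_dvd80 h P
  obtain ⟨n, hn⟩ : ∃ n, n = Nat.card (Subgroup.normalizer ((P : Subgroup G) : Set G)) :=
    ⟨_, rfl⟩
  rw [← hn] at hG h80
  obtain ⟨m, hm⟩ := h80
  have hG1680 : Nat.card G ∣ 1680 := ⟨m, by rw [← hG, mul_assoc, ← hm]; norm_num⟩
  have h7 : 7 ∣ Nat.card G := ⟨3 * n, by omega⟩
  have h49 : ¬ 7 ^ 2 ∣ Nat.card G := by
    intro hd
    have h1 := hd.trans hG1680
    norm_num at h1
  have hT7 : ∀ T : Sylow 7 G, Nat.card T = 7 := fun T =>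
    Cfsg.Agent.S4304.sylow_card_eq_prime 7 T h7 h49
  refine ⟨?_, hT7⟩
  obtain ⟨T⟩ : Nonempty (Sylow 7 G) := inferInstance
  have hmod := card_sylow_modEq_one 7 G
  have hdvd : Nat.card (Sylow 7 G) ∣ 240 := by
    have h1 := T.card_dvd_index
    have h2 := Subgroup.card_mul_index (T : Subgroup G)
    rw [hT7 T] at h2
    have h3 : (T : Subgroup G).index = 3 * n := by omega
    rw [h3] at h1
    exact h1.trans ⟨m, by rw [mul_assoc, ← hm]; norm_num⟩
  have h5 : 5 ∣ Nat.card (Sylow 7 G) := by
    by_contra hnd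
    obtain ⟨T', hT'⟩ := P.2.nonempty_fixed_point_of_prime_not_dvd_card (Sylow 7 G) hnd
    have hPC : ∀ x ∈ (P : Subgroup G),
        x ∈ Subgroup.centralizer ((T' : Subgroup G) : Set G) := by
      intro x hx
      have hxN : x ∈ Subgroup.normalizer ((T' : Subgroup G) : Set G) := by
        have h1 : (⟨x, hx⟩ : (P : Subgroup G)) • T' = T' := hT' ⟨x, hx⟩
        exact Sylow.smul_eq_iff_mem_normalizer.mp h1
      have h6 := pow_mem_cent_of_mem_norm 7 (T' : Subgroup G) (hT7 T') x hxN
      have hx5 : x ^ 5 = 1 := pow_five_eq_one h P hx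
      have h7' : x ^ (7 - 1) = x := by
        show x ^ 6 = x
        rw [pow_succ, hx5, one_mul]
      rwa [h7'] at h6
    have hT'ne : (T' : Subgroup G) ≠ ⊥ := by
      rw [← Subgroup.one_lt_card_iff_ne_bot, hT7 T']; norm_num
    obtain ⟨s, hs1⟩ := (Subgroup.ne_bot_iff_exists_ne_one).mp hT'ne
    have hs1' : (s : G) ≠ 1 := fun e1 => hs1 (Subtype.ext e1)
    have hs7 : orderOf (s : G) = 7 := by
      have h1 : s ^ Nat.card (T' : Subgroup G) = 1 := pow_card_eq_one'
      rw [hT7 T'] at h1
      have h2 : (s : G) ^ 7 = 1 := by simpa using congrArg Subtype.val h1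
      exact orderOf_eq_prime h2 hs1'
    have hsC : (s : G) ∈ Subgroup.centralizer ((P : Subgroup G) : Set G) := by
      rw [Subgroup.mem_centralizer_iff]
      intro x hx
      exact ((Subgroup.mem_centralizer_iff.mp (hPC x hx)) s s.2).symm
    rcases cent_prime h P 7 (by norm_num) (by norm_num) s hs7 hsC with ⟨h2, -⟩ | ⟨h3, -⟩ <;>
      omega
  obtain ⟨k, hk⟩ := h5
  obtain ⟨j, hj⟩ := hdvd
  have hcases : Nat.card (Sylow 7 G) = 15 ∨ Nat.card (Sylow 7 G) = 120 := by
    rw [hk] at hj hmod ⊢
    unfold Nat.ModEq at hmod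
    have hk48 : k ≤ 48 := by
      rcases Nat.eq_zero_or_pos j with h0 | h0
      · rw [h0] at hj; omega
      · nlinarith
    interval_cases k <;> omega
  rcases hcases with h15 | h120
  · exact absurd h15 Cfsg.Agent.S4304.result
  · exact h120

theorem order7_no_fix (h : MinCex G) (g : G) (hg : g ^ 7 = 1) (hg1 : g ≠ 1) (S : Sylow 5 G) :
    g • S ≠ S := by
  intro hS
  haveI : Fact (Nat.Prime 7) := ⟨by norm_num⟩
  have hgN : g ∈ Subgroup.normalizer ((S : Subgroup G) : Set G) :=
    Sylow.smul_eq_iff_mem_normalizer.mp hS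
  have h7 : orderOf g = 7 := orderOf_eq_prime hg hg1
  have h1 : orderOf (⟨g, hgN⟩ : Subgroup.normalizer ((S : Subgroup G) : Set G)) ∣
      Nat.card (Subgroup.normalizer ((S : Subgroup G) : Set G)) := orderOf_dvd_natCard _
  rw [Subgroup.orderOf_mk, h7] at h1
  have h2 := h1.trans (norm_dvd80 h S)
  omega

/-- `g` normalizes both Sylow subgroups of the pair. -/
def Rel2 (g : G) (p : Sylow 5 G × Sylow 5 G) : Prop := g • p.1 = p.1 ∧ g • p.2 = p.2

/-- `g` normalizes the Sylow subgroup. -/
def Rel1 (g : G) (S : Sylow 5 G) : Prop := g • S = S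

set_option maxHeartbeats 1000000 in
theorem final (h : MinCex G) : False := by
  classical
  haveI : Fact (Nat.Prime 7) := ⟨by norm_num⟩
  haveI : Fintype G := Fintype.ofFinite G
  haveI : Fintype (Sylow 5 G) := Fintype.ofFinite _
  haveI : Fintype (Sylow 7 G) := Fintype.ofFinite _
  obtain ⟨hn7, hT7⟩ := syl7_facts h
  obtain ⟨P⟩ : Nonempty (Sylow 5 G) := inferInstance
  obtain ⟨n, hn⟩ : ∃ n, n = Nat.card (Subgroup.normalizer ((P : Subgroup G) : Set G)) :=
    ⟨_, rfl⟩
  have hG : Nat.card G = 21 * n := by rw [hn]; exact (norm_card h P).symm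
  have hNn : ∀ S : Sylow 5 G,
      Nat.card (Subgroup.normalizer ((S : Subgroup G) : Set G)) = n := by
    intro S
    have h1 := norm_card h S
    omega
  have hcardΩ : Fintype.card (Sylow 5 G) = 21 := by
    rw [← Nat.card_eq_fintype_card]; exact h.1
  have hcardG : Fintype.card G = 21 * n := by rw [← Nat.card_eq_fintype_card]; exact hG
  obtain ⟨f, hf'⟩ : ∃ f : G → ℕ,
      f = fun g => (Finset.univ.filter (fun S : Sylow 5 G => g • S = S)).card := ⟨_, rfl⟩
  have hf : ∀ g, f g = (Finset.univ.filter (fun S : Sylow 5 G => g • S = S)).card :=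
    fun g => by rw [hf']
  have hfFix : ∀ g, f g = (Fix g).ncard := by
    intro g
    rw [hf, ← Set.ncard_coe_finset]
    congr 1
    ext S
    simp [Fix]
  have hstab : ∀ S : Sylow 5 G, (Finset.univ.filter (fun g : G => g • S = S)).card = n := by
    intro S
    rw [← hNn S, ← Set.ncard_coe_finset, ← Nat.card_coe_set_eq]
    apply Nat.card_congr
    exact Equiv.subtypeEquivRight (fun g => by simp [Sylow.smul_eq_iff_mem_normalizer])
  have hsum1 : ∑ g : G, f g = 21 * n := by
    have h1 := Finset.sum_card_bipartiteAbove_eq_sum_card_bipartiteBelow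
      (s := (Finset.univ : Finset G)) (t := (Finset.univ : Finset (Sylow 5 G)))
      (r := Rel1)
    have h2 : ∀ g : G, f g = (Finset.bipartiteAbove Rel1 (Finset.univ : Finset (Sylow 5 G)) g).card := by
      intro g; rw [hf]; congr 1
    have h3 : ∀ S ∈ (Finset.univ : Finset (Sylow 5 G)),
        (Finset.bipartiteBelow Rel1 (Finset.univ : Finset G) S).card = n := fun S _ => hstab S
    rw [Finset.sum_congr rfl (fun g _ => h2 g), h1, Finset.sum_const_nat h3, Finset.card_univ,
      hcardΩ]
  have hsum2 : ∑ g : G, f g * f g ≤ 21 * n + 1764 := by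
    have h1 := Finset.sum_card_bipartiteAbove_eq_sum_card_bipartiteBelow
      (s := (Finset.univ : Finset G)) (t := (Finset.univ : Finset (Sylow 5 G × Sylow 5 G)))
      (r := Rel2)
    have h2 : ∀ g : G, f g * f g =
        (Finset.bipartiteAbove Rel2 (Finset.univ : Finset (Sylow 5 G × Sylow 5 G)) g).card := by
      intro g
      rw [hf, ← Finset.card_product]
      congr 1
      ext p
      constructor
      · intro hp
        rw [Finset.mem_product, Finset.mem_filter, Finset.mem_filter] at hp
        exact Finset.mem_filter.mpr ⟨Finset.mem_univ _, hp.1.2, hp.2.2⟩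
      · intro hp
        have h3 : Rel2 g p := (Finset.mem_filter.mp hp).2
        rw [Finset.mem_product, Finset.mem_filter, Finset.mem_filter]
        exact ⟨⟨Finset.mem_univ _, h3.1⟩, Finset.mem_univ _, h3.2⟩
    have h3 : ∀ p : Sylow 5 G × Sylow 5 G,
        (Finset.bipartiteBelow Rel2 (Finset.univ : Finset G) p).card
          ≤ (if p.1 = p.2 then n else 0) + 4 := by
      intro p
      have e0 : Finset.bipartiteBelow Rel2 (Finset.univ : Finset G) p
          = Finset.univ.filter (fun g : G => g • p.1 = p.1 ∧ g • p.2 = p.2) := by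
        ext g
        constructor
        · intro hg
          exact Finset.mem_filter.mpr ⟨Finset.mem_univ _, (Finset.mem_filter.mp hg).2⟩
        · intro hg
          exact Finset.mem_filter.mpr ⟨Finset.mem_univ _, (Finset.mem_filter.mp hg).2⟩
      rw [e0]
      by_cases hp : p.1 = p.2
      · rw [if_pos hp, ← hp]
        have h4 : (Finset.univ.filter (fun g : G => g • p.1 = p.1 ∧ g • p.1 = p.1))
            = Finset.univ.filter (fun g : G => g • p.1 = p.1) := by
          ext g; simp
        rw [h4, hstab]; omega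
      · rw [if_neg hp, zero_add]
        have h4 := inter_le4 h p.1 p.2 hp
        have h5 : (Finset.univ.filter (fun g : G => g • p.1 = p.1 ∧ g • p.2 = p.2)).card
            = Nat.card (MulAction.stabilizer G p.1 ⊓ MulAction.stabilizer G p.2 : Subgroup G) := by
          rw [← Set.ncard_coe_finset, ← Nat.card_coe_set_eq]
          apply Nat.card_congr
          exact Equiv.subtypeEquivRight (fun g => by simp [Subgroup.mem_inf])
        rw [h5]; exact h4
    calc ∑ g : G, f g * f g
        = ∑ g : G, (Finset.bipartiteAbove Rel2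
            (Finset.univ : Finset (Sylow 5 G × Sylow 5 G)) g).card :=
          Finset.sum_congr rfl (fun g _ => h2 g)
      _ = ∑ p : Sylow 5 G × Sylow 5 G,
            (Finset.bipartiteBelow Rel2 (Finset.univ : Finset G) p).card := h1
      _ ≤ ∑ p : Sylow 5 G × Sylow 5 G, ((if p.1 = p.2 then n else 0) + 4) :=
          Finset.sum_le_sum (fun p _ => h3 p)
      _ = 21 * n + 1764 := by
          rw [Finset.sum_add_distrib, Fintype.sum_prod_type]
          simp only [Finset.sum_ite_eq, Finset.mem_univ, if_true, Finset.sum_const,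
            Finset.card_univ, Fintype.card_prod, hcardΩ, smul_eq_mul]
  obtain ⟨t, ht⟩ : ∃ t : Sylow 7 G → Finset G,
      t = fun T : Sylow 7 G =>
        Finset.univ.filter (fun g : G => g ∈ (T : Subgroup G) ∧ g ≠ 1) := ⟨_, rfl⟩
  have hpow7 : ∀ (T : Sylow 7 G) (g : G), g ∈ (T : Subgroup G) → g ^ 7 = 1 := by
    intro T g hg
    have h1 : (⟨g, hg⟩ : (T : Subgroup G)) ^ Nat.card (T : Subgroup G) = 1 := pow_card_eq_one'
    rw [hT7 T] at h1
    simpa using congrArg Subtype.val h1
  have htcard : ∀ T : Sylow 7 G, (t T).card = 6 := by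
    intro T
    have h1 : (Finset.univ.filter (fun g : G => g ∈ (T : Subgroup G))).card = 7 := by
      refine Eq.trans ?_ (hT7 T)
      rw [← Set.ncard_coe_finset, ← Nat.card_coe_set_eq]
      apply Nat.card_congr
      exact Equiv.subtypeEquivRight (fun g => by
        rw [Finset.mem_coe, Finset.mem_filter]
        exact ⟨fun hg => hg.2, fun hg => ⟨Finset.mem_univ _, hg⟩⟩)
    have h2 : t T = (Finset.univ.filter (fun g : G => g ∈ (T : Subgroup G))).erase 1 := by
      rw [ht]; ext g; simp [and_comm]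
    rw [h2, Finset.card_erase_of_mem (by simp), h1]
  have hdisj : ∀ T ∈ (Finset.univ : Finset (Sylow 7 G)),
      ∀ T' ∈ (Finset.univ : Finset (Sylow 7 G)), T ≠ T' → Disjoint (t T) (t T') := by
    intro T _ T' _ hTT'
    rw [Finset.disjoint_left]
    intro g hg hg'
    rw [ht] at hg hg'
    simp only [Finset.mem_filter, Finset.mem_univ, true_and] at hg hg'
    apply hTT'
    have hg7 : orderOf g = 7 := orderOf_eq_prime (hpow7 T g hg.1) hg.2
    have key : ∀ T0 : Sylow 7 G, g ∈ (T0 : Subgroup G) →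
        Subgroup.zpowers g = (T0 : Subgroup G) := by
      intro T0 hgT0
      apply Subgroup.eq_of_le_of_card_ge ((Subgroup.zpowers_le).mpr hgT0)
      rw [Nat.card_zpowers, hg7, hT7 T0]
    exact Sylow.ext ((key T hg.1).symm.trans (key T' hg'.1))
  obtain ⟨V, hV⟩ : ∃ V : Finset G, V = Finset.univ.biUnion t := ⟨_, rfl⟩
  have hVcard : V.card = 720 := by
    rw [hV, Finset.card_biUnion hdisj, Finset.sum_const_nat (fun T _ => htcard T),
      Finset.card_univ, ← Nat.card_eq_fintype_card, hn7]
  obtain ⟨U, hU⟩ : ∃ U : Finset G, U = Finset.univ.filter (fun g => 1 ≤ f g) := ⟨_, rfl⟩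
  have hUV : Disjoint U V := by
    rw [Finset.disjoint_left]
    intro g hgU hgV
    rw [hU, Finset.mem_filter] at hgU
    rw [hV, Finset.mem_biUnion] at hgV
    obtain ⟨T, -, hgT⟩ := hgV
    rw [ht] at hgT
    simp only [Finset.mem_filter, Finset.mem_univ, true_and] at hgT
    have h2 : g ^ 7 = 1 := hpow7 T g hgT.1
    have h3 : f g = 0 := by
      rw [hf, Finset.card_eq_zero, Finset.filter_eq_empty_iff]
      intro S _
      exact order7_no_fix h g h2 hgT.2 S
    omega
  have hUVcard : U.card + 720 ≤ 21 * n := by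
    rw [← hVcard, ← Finset.card_union_of_disjoint hUV, ← hcardG]
    exact Finset.card_le_univ _
  have hf1 : f 1 = 21 := by
    rw [hf, Finset.filter_true_of_mem (fun S _ => one_smul G S), Finset.card_univ, hcardΩ]
  have hf2 : ∀ g, f g ≠ 2 := fun g => by rw [hfFix]; exact fix_ne_two h g
  have hpt : ∀ g ∈ (Finset.univ : Finset G),
      4 * f g + (if g = 1 then 360 else 0) ≤ f g * f g + 3 * (if 1 ≤ f g then 1 else 0) := by
    intro g _
    by_cases hg : g = 1
    · rw [if_pos hg, hg, hf1]; norm_num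
    · rw [if_neg hg]
      have h2 := hf2 g
      by_cases h1 : 1 ≤ f g
      · rw [if_pos h1]
        have h3 : 3 ≤ f g ∨ f g = 1 := by omega
        rcases h3 with h3 | h3
        · nlinarith
        · rw [h3]
      · rw [if_neg h1]
        have h0 : f g = 0 := by omega
        rw [h0]
  have hA : ∑ g : G, (if g = 1 then 360 else 0) = 360 := by simp
  have hB : ∑ g : G, (if 1 ≤ f g then 1 else 0) = U.card := by rw [hU, Finset.card_filter]
  have hsum := Finset.sum_le_sum hpt
  rw [Finset.sum_add_distrib, Finset.sum_add_distrib, ← Finset.mul_sum, ← Finset.mul_sum,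
    hsum1, hA, hB] at hsum
  omega

end Min

theorem no21 : ∀ (n : ℕ) (G : Type u) [Group G] [Finite G], Nat.card G = n →
    Nat.card (Sylow 5 G) ≠ 21 := by
  intro n
  induction n using Nat.strong_induction_on with
  | _ n ih =>
    intro G _ _ hn h21
    haveI : Fact (Nat.Prime 5) := ⟨by norm_num⟩
    exact final (G := G) ⟨h21, fun H _ _ hlt => ih (Nat.card H) (hn ▸ hlt) H rfl⟩

end Cfsg.Agent.Helper17.Syl21
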